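import Cfsg.Agent.Lib.Chev.Aut.Carry
import Cfsg.Agent.Lib.Chev.Sub.Cen

/-! Automorphisms preserving `U` and `V` permute the root subgroups of fundamental roots. -/

set_option autoImplicit false
set_option linter.unusedSimpArgs false
set_option linter.unusedVariables false
set_option linter.unusedSectionVars false
set_option linter.style.haveILetI false

namespace Cfsg.Agent.Lib.Chev

open Cfsg Cfsg.Lie Matrix BNPair Cfsg.Agent.Lib.BN
open Good2 (NN)
open Good3 (QJ Shape Shape_mul Shape_diag_mul)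

/-- An automorphism preserving `B` permutes the minimal parabolic subgroups. -/
theorem atom_map {Γ : Type*} [Group Γ] (P : BNPair Γ) (θ : Γ ≃* Γ) (hB : ∀ y, y ∈ P.B ↔ θ y ∈ P.B) {s : Γ} (hs : s ∈ P.S) :
    ∃ s' ∈ P.S, ∀ y, y ∈ P.parabolic {s} ↔ θ y ∈ P.parabolic {s'} := by
  have hpar0 : P.parabolic ∅ = P.B := by
    show P.B ⊔ Subgroup.closure ∅ = P.B
    rw [Subgroup.closure_empty, sup_bot_eq]
  let M : Subgroup Γ := (P.parabolic {s}).map θ.toMonoidHom
  have hBM : P.B ≤ M := by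
    intro b hb
    refine ⟨θ.symm b, B_le_parabolic _ ((hB _).2 (by simpa using hb)), by simp⟩
  have hM := eq_parabolic M hBM
  have hne : (P.S ∩ M).Nonempty := by
    by_contra hc
    rw [Set.not_nonempty_iff_eq_empty] at hc
    rw [hc, hpar0] at hM
    have h1 : θ s ∈ M := ⟨s, subset_parabolic (Set.mem_singleton s), rfl⟩
    rw [hM] at h1
    exact S_not_mem_B hs ((hB s).2 h1)
  obtain ⟨s', hs', hs'M⟩ := hne
  refine ⟨s', hs', ?_⟩
  have hle1 : P.parabolic {s'} ≤ M := by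
    apply sup_le hBM
    rw [Subgroup.closure_le]
    rintro x rfl
    exact hs'M
  let M' : Subgroup Γ := (P.parabolic {s'}).comap θ.toMonoidHom
  have hle2 : M' ≤ P.parabolic {s} := by
    intro y hy
    have h1 : θ y ∈ M := hle1 hy
    obtain ⟨z, hz, e⟩ := h1
    have : z = y := θ.injective e
    exact this ▸ hz
  have hBM' : P.B ≤ M' := by
    intro b hb
    exact B_le_parabolic _ ((hB b).1 hb)
  have hM' := eq_parabolic M' hBM'
  have hne' : (P.S ∩ M').Nonempty := by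
    by_contra hc
    rw [Set.not_nonempty_iff_eq_empty] at hc
    rw [hc, hpar0] at hM'
    have h1 : θ.symm s' ∈ M' := by
      show θ (θ.symm s') ∈ P.parabolic {s'}
      rw [MulEquiv.apply_symm_apply]
      exact subset_parabolic (Set.mem_singleton s')
    rw [hM'] at h1
    apply S_not_mem_B hs'
    have h2 := (hB _).1 h1
    simpa using h2
  obtain ⟨s'', hs'', hs''M⟩ := hne'
  have h3 : s'' ∈ ({s} : Set Γ) := mem_of_mem_parabolic (by rintro x rfl; exact hs) hs'' (hle2 hs''M)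
  have h4 : s'' = s := h3
  subst h4
  have hle3 : P.parabolic {s''} ≤ M' := by
    apply sup_le hBM'
    rw [Subgroup.closure_le]
    rintro x rfl
    exact hs''M
  intro y
  constructor
  · intro hy
    exact hle3 hy
  · intro hy
    exact hle2 hy

variable {D : ChevalleyDatum} {F : Type*} [Field F]

namespace Good0

variable (G : Good0 D)
include G

theorem conj_mem_of_gen (a : GL D.Idx F) (h1 : ∀ (r : ℕ) (hr : r < D.nroots) (t : F), a * G.xg hr t * a⁻¹ ∈ D.group F)
    {y : GL D.Idx F} (hy : y ∈ D.group F) : a * y * a⁻¹ ∈ D.group F := by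
  rw [group_eq_rG] at hy
  refine G.rG_induction (P := (· < D.nroots)) (fun _ h => h) (Q := fun y => a * y * a⁻¹ ∈ D.group F) ?_ ?_ ?_ y hy
  · simp only [mul_one, mul_inv_cancel]
    exact Subgroup.one_mem _
  · intro x y hx hy
    have := Subgroup.mul_mem _ hx hy
    convert this using 1
    group
  · intro r hr t _
    exact h1 r hr t

/-- Conjugation by an element of the ambient group normalising the Chevalley group. -/
def conjAut (a : GL D.Idx F) (h1 : ∀ (r : ℕ) (hr : r < D.nroots) (t : F), a * G.xg hr t * a⁻¹ ∈ D.group F)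
    (h2 : ∀ (r : ℕ) (hr : r < D.nroots) (t : F), a⁻¹ * G.xg hr t * a ∈ D.group F) :
    ↥(D.group F) ≃* ↥(D.group F) where
  toFun y := ⟨a * y * a⁻¹, G.conj_mem_of_gen a h1 y.2⟩
  invFun y := ⟨a⁻¹ * y * a, by
    have := G.conj_mem_of_gen a⁻¹ (by simpa using h2) y.2
    simpa using this⟩
  left_inv y := by
    apply Subtype.ext
    simp only
    group
  right_inv y := by
    apply Subtype.ext
    simp only
    group
  map_mul' x y := by
    apply Subtype.ext
    simp only [Subgroup.coe_mul]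
    group

@[simp] theorem conjAut_val (a : GL D.Idx F) (h1 : ∀ (r : ℕ) (hr : r < D.nroots) (t : F), a * G.xg hr t * a⁻¹ ∈ D.group F)
    (h2 : ∀ (r : ℕ) (hr : r < D.nroots) (t : F), a⁻¹ * G.xg hr t * a ∈ D.group F) (y : ↥(D.group F)) :
    ((G.conjAut a h1 h2 y : ↥(D.group F)) : GL D.Idx F) = a * y * a⁻¹ := rfl

@[simp] theorem conjAut_symm_val (a : GL D.Idx F) (h1 : ∀ (r : ℕ) (hr : r < D.nroots) (t : F), a * G.xg hr t * a⁻¹ ∈ D.group F)
    (h2 : ∀ (r : ℕ) (hr : r < D.nroots) (t : F), a⁻¹ * G.xg hr t * a ∈ D.group F) (y : ↥(D.group F)) :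
    (((G.conjAut a h1 h2).symm y : ↥(D.group F)) : GL D.Idx F) = a⁻¹ * y * a := rfl

end Good0

namespace Good2

variable (G : Good2 D)
include G

/-- A root element in the group. -/
def xR {r : ℕ} (hr : r < D.nroots) (t : F) : ↥(D.group F) := ⟨G.xg hr t, G.xg_mem_grp hr t⟩

@[simp] theorem xR_val {r : ℕ} (hr : r < D.nroots) (t : F) : ((G.xR hr t : ↥(D.group F)) : GL D.Idx F) = G.xg hr t := rfl

theorem xR_mul {r : ℕ} (hr : r < D.nroots) (t u : F) : G.xR hr t * G.xR hr u = G.xR hr (t + u) :=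
  Subtype.ext (G.xg_mul hr t u)

theorem xR_zero {r : ℕ} (hr : r < D.nroots) : G.xR hr (0 : F) = 1 := Subtype.ext (G.xg_zero hr)

theorem xR_inv {r : ℕ} (hr : r < D.nroots) (t : F) : (G.xR hr t)⁻¹ = G.xR hr (-t) :=
  Subtype.ext (G.xg_inv hr t)

theorem xR_inj {r : ℕ} (hr : r < D.nroots) {t u : F} (h : G.xR hr t = G.xR hr u) : t = u := by
  have h1 : G.xR hr (t - u) = 1 := by
    rw [sub_eq_add_neg, ← G.xR_mul, ← G.xR_inv, h, mul_inv_cancel]
  have h2 : G.xg hr (t - u) = 1 := congrArg Subtype.val h1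
  exact sub_eq_zero.mp (G.xg_eq_one hr h2)

theorem xR_mem_X {r : ℕ} (hr : r < D.nroots) (t : F) : ((G.xR hr t : ↥(D.group F)) : GL D.Idx F) ∈ D.rootSubgroup F r :=
  G.x_mem_X hr t

theorem nGG_inj {i j : Fin D.rank} (h : G.nGG F i = G.nGG F j) : i = j := by
  have h1 : IsMono D (G.Wp i) (((G.nGG F i : ↥(D.group F)) : GL D.Idx F) : Matrix D.Idx D.Idx F) := G.nG_isMono i
  have h2 : IsMono D (G.Wp j) (((G.nGG F i : ↥(D.group F)) : GL D.Idx F) : Matrix D.Idx D.Idx F) := by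
    rw [h]
    exact G.nG_isMono j
  exact G.Wp_inj (h1.uniq h2)

/-- The minimal parabolic subgroups of the pair and of the ambient group. -/
theorem mem_parabolic_single (i : Fin D.rank) (y : ↥(D.group F)) :
    y ∈ (G.bnPair F).parabolic {G.nGG F i} ↔ (y : GL D.Idx F) ∈ D.parabolicSubgroup F {i.val} := by
  have h : ((G.bnPair F).parabolic {G.nGG F i}).map (D.group F).subtype = D.parabolicSubgroup F {i.val} := by
    show (((D.borelSubgroup F).subgroupOf (D.group F)) ⊔ Subgroup.closure {G.nGG F i}).map (D.group F).subtype =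
      D.borelSubgroup F ⊔ Subgroup.closure _
    rw [Subgroup.map_sup, Subgroup.map_subgroupOf_eq_of_le G.B_le_group, MonoidHom.map_closure, Set.image_singleton]
    congr 2
    ext g
    simp only [Set.mem_singleton_iff, Set.mem_ofPred_eq]
    constructor
    · rintro rfl
      exact ⟨i.val, rfl, i.isLt, rfl⟩
    · rintro ⟨j, rfl, hj, e⟩
      exact Units.ext e
  rw [← h]
  exact (Subgroup.mem_map_iff_mem Subtype.val_injective).symm

/-- Root elements of opposite sign for different nodes of the diagram commute. -/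
theorem not_comm (i : ℕ) (hi : i < D.rank) :
    G.xg (G.simple_lt hi) (1 : F) * G.xg (G.neg_lt (G.simple_lt hi)) 1 ≠
      G.xg (G.neg_lt (G.simple_lt hi)) 1 * G.xg (G.simple_lt hi) (1 : F) := by
  intro h
  have hlt := G.simple_lt hi
  have hinv : G.xg hlt (1 : F) * G.xg (G.neg_lt hlt) (-1) = G.xg (G.neg_lt hlt) (-1) * G.xg hlt (1 : F) := by
    have e : G.xg (G.neg_lt hlt) (-1 : F) = (G.xg (G.neg_lt hlt) 1)⁻¹ := (G.xg_inv _ _).symm
    rw [e]
    have h' : (G.xg (G.neg_lt hlt) (1 : F))⁻¹ * (G.xg hlt 1 * G.xg (G.neg_lt hlt) 1) * (G.xg (G.neg_lt hlt) 1)⁻¹ =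
      (G.xg (G.neg_lt hlt) (1 : F))⁻¹ * (G.xg (G.neg_lt hlt) 1 * G.xg hlt 1) * (G.xg (G.neg_lt hlt) 1)⁻¹ := by rw [h]
    have e2 : (G.xg (G.neg_lt hlt) (1 : F))⁻¹ * (G.xg (G.neg_lt hlt) 1 * G.xg hlt 1) * (G.xg (G.neg_lt hlt) 1)⁻¹ = G.xg hlt 1 * (G.xg (G.neg_lt hlt) 1)⁻¹ := by group
    have e3 : (G.xg (G.neg_lt hlt) (1 : F))⁻¹ * (G.xg hlt 1 * G.xg (G.neg_lt hlt) 1) * (G.xg (G.neg_lt hlt) 1)⁻¹ = (G.xg (G.neg_lt hlt) 1)⁻¹ * G.xg hlt 1 := by group
    rw [e2, e3] at h'
    exact h'.symm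
  have h1 := G.nG_conj_x (F := F) ⟨i, hi⟩ hlt 1
  have e1 : (G.nG ⟨i, hi⟩ : GL D.Idx F) = G.xg hlt 1 * G.xg (G.neg_lt hlt) (-1) * G.xg hlt 1 := G.nG_eq_xgC i hi
  have h2 : (G.nG ⟨i, hi⟩ : GL D.Idx F) * G.xg hlt 1 = G.xg hlt 1 * G.nG ⟨i, hi⟩ := by
    rw [e1]
    have hc : Commute (G.xg hlt (1 : F)) (G.xg (G.neg_lt hlt) (-1)) := hinv
    exact ((Commute.refl _).mul_left hc.symm).mul_left (Commute.refl _)
  rw [h2, mul_inv_cancel_right] at h1
  have h3 : G.xg (G.W_lt hi hlt) (((G.S i (D.simple i) : ℤ) : F) * 1) ∈ D.borelSubgroup F := by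
    rw [← h1]
    exact G.U_le_B (G.xg_mem hlt ((G.pos_iff hlt).mpr (G.simple_pos hi)) _)
  have h4 := G.x_neg_mem_B (G.W_lt hi hlt) (by
    rw [G.W_simple hi]
    exact (G.neg_pos hlt).mp (G.simple_pos hi)) h3
  have h5 := sign_sq (F := F) (G.S_cases hi hlt)
  rw [mul_one] at h4
  rw [h4] at h5
  simp at h5

end Good2

namespace Good3

variable (G : Good3 D)
include G

theorem rc_simple_ne {i k : ℕ} (hi : i < D.rank) (hk : k < D.rank) (h : k ≠ i) : G.rc (D.simple i) k = 0 := by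
  apply (G.rc_zero_iff (G.simple_lt hi) hk).mpr
  rw [G.toGood2.cor_simple hi hk, if_neg h]

theorem rc_simple_pos {i : ℕ} (hi : i < D.rank) : 0 < G.rc (D.simple i) i := by
  apply (G.rc_pos_iff (G.simple_lt hi) hi).mpr
  rw [G.toGood2.cor_simple hi hi, if_pos rfl]
  omega

theorem rc_sign {r : ℕ} (hr : r < D.nroots) {a b : ℕ} (ha : a < D.rank) (hb : b < D.rank) (h1 : 0 < G.rc r a) (h2 : G.rc r b < 0) : False := by
  by_cases hN : NN D ≤ r
  · have := G.rc_nonneg hr hN hb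
    omega
  · have hN' : NN D ≤ D.neg r := by
      rw [G.neg_eq hr]
      have := G.toGood2.NN_add
      omega
    have h3 := G.rc_nonneg (G.neg_lt hr) hN' ha
    rw [G.rc_neg hr ha] at h3
    omega

theorem comm_simple_neg {a b : ℕ} (ha : a < D.rank) (hb : b < D.rank) (h : a ≠ b) (t u : F) :
    G.xg (G.neg_lt (G.simple_lt hb)) u * G.xg (G.simple_lt ha) t = G.xg (G.simple_lt ha) t * G.xg (G.neg_lt (G.simple_lt hb)) u := by
  have hla := G.simple_lt ha
  have hlb := G.simple_lt hb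
  have hposa := G.toGood2.simple_pos ha
  have hnegb := (G.toGood2.neg_pos hlb).mp (G.toGood2.simple_pos hb)
  refine G.toGood2.comm_of_evenC hla (G.neg_lt hlb) (by omega) ?_ ?_ t u
  · intro e
    have h1 := G.neg_neg hla
    have h2 := G.neg_neg hlb
    rw [e] at h2
    rw [h1] at h2
    exact h (G.toGood2.simple_inj ha hb h2)
  · intro c hc
    exfalso
    have h1 : D.neg (D.simple b) ≠ D.simple a := by omega
    have h2 : D.neg (D.simple b) ≠ D.neg (D.simple a) := by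
      intro e
      have h3 := G.neg_neg hla
      have h4 := G.neg_neg hlb
      rw [e, h3] at h4
      exact h (G.toGood2.simple_inj ha hb h4)
    have hclt := G.commTerms_lt hla (G.neg_lt hlb) c hc
    obtain ⟨hi, hj⟩ := commTerms_ge hc
    have e1 := G.rc_comm hla (G.neg_lt hlb) ha h1 h2 hc
    have e2 := G.rc_comm hla (G.neg_lt hlb) hb h1 h2 hc
    rw [G.rc_neg hlb ha, G.rc_simple_ne hb ha h, neg_zero, mul_zero, add_zero] at e1
    rw [G.rc_neg hlb hb, G.rc_simple_ne ha hb (Ne.symm h), mul_zero, zero_add] at e2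
    have p1 := G.rc_simple_pos ha
    have p2 := G.rc_simple_pos hb
    have q1 : 0 < G.rc c.1 a := by
      rw [e1]
      exact mul_pos (by exact_mod_cast hi) p1
    have q2 : G.rc c.1 b < 0 := by
      rw [e2]
      have : (0 : ℤ) < c.2.2.2 := by exact_mod_cast hj
      nlinarith
    exact G.rc_sign hclt ha hb q1 q2

end Good3

namespace Good5

variable (G : Good5 D)
include G

theorem X_neg_iff (i : Fin D.rank) (y : ↥(D.group F)) :
    (y : GL D.Idx F) ∈ D.rootSubgroup F (D.neg (D.simple i)) ↔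
      (y : GL D.Idx F) ∈ D.negUnipotent F ∧ y ∈ (G.toGood2.bnPair F).parabolic {G.toGood2.nGG F i} := by
  rw [G.toGood2.mem_parabolic_single]
  have hlt := G.neg_lt (G.simple_lt i.isLt)
  constructor
  · intro h
    obtain ⟨t, ht⟩ := G.toGood2.X_form hlt h
    rw [ht]
    exact ⟨G.xg_mem hlt (G.simple_neg_isNeg i.isLt) t, G.neg_mem_parabolic i.isLt t⟩
  · rintro ⟨h1, h2⟩
    obtain ⟨t, ht⟩ := G.neg_inf_parabolic i.isLt h1 h2
    rw [ht]
    exact G.toGood2.x_mem_X hlt t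

theorem neg_perm (θ : ↥(D.group F) ≃* ↥(D.group F)) (hU : Carries θ (D.posUnipotent F) (D.posUnipotent F))
    (hV : Carries θ (D.negUnipotent F) (D.negUnipotent F)) :
    ∃ ρ : Equiv.Perm (Fin D.rank), ∀ i : Fin D.rank, Carries θ (D.rootSubgroup F (D.neg (D.simple i)))
      (D.rootSubgroup F (D.neg (D.simple (ρ i)))) := by
  have hB := G.toGood2.carries_B hU
  have key : ∀ i : Fin D.rank, ∃ j : Fin D.rank, ∀ y, y ∈ (G.toGood2.bnPair F).parabolic {G.toGood2.nGG F i} ↔
      θ y ∈ (G.toGood2.bnPair F).parabolic {G.toGood2.nGG F j} := by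
    intro i
    obtain ⟨s', ⟨j, hj, e⟩, h⟩ := atom_map (G.toGood2.bnPair F) θ hB (G.toGood2.nGG_mem_S i)
    refine ⟨⟨j, hj⟩, ?_⟩
    have : s' = G.toGood2.nGG F ⟨j, hj⟩ := Subtype.ext (Units.ext e)
    rw [← this]
    exact h
  choose f hf using key
  have hinj : Function.Injective f := by
    intro i i' he
    have h1 := (hf i (G.toGood2.nGG F i)).1 (subset_parabolic (Set.mem_singleton _))
    rw [he, ← hf i'] at h1
    have h2 := mem_of_mem_parabolic (P := G.toGood2.bnPair F) (J := {G.toGood2.nGG F i'})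
      (by rintro x rfl; exact G.toGood2.nGG_mem_S i') (G.toGood2.nGG_mem_S i) h1
    exact G.toGood2.nGG_inj h2
  refine ⟨Equiv.ofBijective f (Finite.injective_iff_bijective.1 hinj), fun i y => ?_⟩
  rw [G.X_neg_iff, G.X_neg_iff, hV y, hf i y]
  rfl

/-- The Chevalley involution as an automorphism. -/
noncomputable def tau (G : Good5 D) (F : Type*) [Field F] : ↥(D.group F) ≃* ↥(D.group F) :=
  G.conjAut (G.aU F) (fun r hr t => by rw [G.aU_conj hr t]; exact G.xg_mem_grp _ _)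
    (fun r hr t => by rw [G.aU_inv_conj hr t]; exact G.xg_mem_grp _ _)

@[simp] theorem tau_val (y : ↥(D.group F)) : ((G.tau F y : ↥(D.group F)) : GL D.Idx F) = G.aU F * y * (G.aU F)⁻¹ := rfl

@[simp] theorem tau_symm_val (y : ↥(D.group F)) : (((G.tau F).symm y : ↥(D.group F)) : GL D.Idx F) = (G.aU F)⁻¹ * y * G.aU F := rfl

theorem aU_rG {P Q : ℕ → Prop} (hP : ∀ r, P r → r < D.nroots) (hPQ : ∀ r, P r → Q (D.neg r)) {g : GL D.Idx F}
    (hg : g ∈ rG D F P) : G.aU F * g * (G.aU F)⁻¹ ∈ rG D F Q := by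
  refine G.rG_induction hP (Q := fun g => G.aU F * g * (G.aU F)⁻¹ ∈ rG D F Q) ?_ ?_ ?_ g hg
  · simp only [mul_one, mul_inv_cancel]
    exact Subgroup.one_mem _
  · intro x y hx hy
    have := Subgroup.mul_mem _ hx hy
    convert this using 1
    group
  · intro r hr t hp
    rw [G.aU_conj hr t]
    exact G.xg_mem _ (hPQ r hp) _

theorem aU_inv_rG {P Q : ℕ → Prop} (hP : ∀ r, P r → r < D.nroots) (hPQ : ∀ r, P r → Q (D.neg r)) {g : GL D.Idx F}
    (hg : g ∈ rG D F P) : (G.aU F)⁻¹ * g * G.aU F ∈ rG D F Q := by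
  refine G.rG_induction hP (Q := fun g => (G.aU F)⁻¹ * g * G.aU F ∈ rG D F Q) ?_ ?_ ?_ g hg
  · simp only [mul_one, inv_mul_cancel]
    exact Subgroup.one_mem _
  · intro x y hx hy
    have := Subgroup.mul_mem _ hx hy
    convert this using 1
    group
  · intro r hr t hp
    rw [G.aU_inv_conj hr t]
    exact G.xg_mem _ (hPQ r hp) _

/-- `τ` and two subgroups interchanged by it. -/
theorem tau_carries {P Q : ℕ → Prop} (hP : ∀ r, P r → r < D.nroots) (hQ : ∀ r, Q r → r < D.nroots)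
    (hPQ : ∀ r, P r → Q (D.neg r)) (hQP : ∀ r, Q r → P (D.neg r)) : Carries (G.tau F) (rG D F P) (rG D F Q) := by
  intro y
  constructor
  · intro h
    exact G.aU_rG hP hPQ h
  · intro h
    have := G.aU_inv_rG hQ hQP h
    simpa [mul_assoc] using this

theorem neg_isPos {r : ℕ} (h : D.IsNegRoot r) : D.IsPosRoot (D.neg r) := by
  have hr := h.1
  have := (G.toGood2.neg_iff hr).mp h
  apply (G.toGood2.pos_iff (G.neg_lt hr)).mpr
  rw [G.neg_eq hr]
  have := G.toGood2.NN_add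
  omega

theorem neg_isNeg {r : ℕ} (h : D.IsPosRoot r) : D.IsNegRoot (D.neg r) := by
  have hr := h.1
  have h1 := (G.toGood2.pos_iff hr).mp h
  exact (G.toGood2.neg_iff (G.neg_lt hr)).mpr ((G.toGood2.neg_pos hr).mp h1)

theorem tau_U : Carries (G.tau F) (D.posUnipotent F) (D.negUnipotent F) :=
  G.tau_carries (fun _ h => h.1) (fun _ h => h.1) (fun _ h => G.neg_isNeg h) (fun _ h => G.neg_isPos h)

theorem tau_V : Carries (G.tau F) (D.negUnipotent F) (D.posUnipotent F) :=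
  G.tau_carries (fun _ h => h.1) (fun _ h => h.1) (fun _ h => G.neg_isPos h) (fun _ h => G.neg_isNeg h)

theorem tau_X {r : ℕ} (hr : r < D.nroots) : Carries (G.tau F) (D.rootSubgroup F r) (D.rootSubgroup F (D.neg r)) := by
  rw [rootSubgroup_eq, rootSubgroup_eq]
  apply G.tau_carries
  · rintro _ rfl
    exact hr
  · rintro _ rfl
    exact G.neg_lt hr
  · rintro _ rfl
    rfl
  · rintro _ rfl
    exact G.neg_neg hr

/-- An automorphism preserving `U` and `V` permutes the root subgroups of the `± p_i`. -/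
theorem root_perm (θ : ↥(D.group F) ≃* ↥(D.group F)) (hU : Carries θ (D.posUnipotent F) (D.posUnipotent F))
    (hV : Carries θ (D.negUnipotent F) (D.negUnipotent F)) :
    ∃ ρ : Equiv.Perm (Fin D.rank), ∀ i : Fin D.rank, Carries θ (D.rootSubgroup F (D.simple i)) (D.rootSubgroup F (D.simple (ρ i))) ∧
      Carries θ (D.rootSubgroup F (D.neg (D.simple i))) (D.rootSubgroup F (D.neg (D.simple (ρ i)))) := by
  obtain ⟨ρ, hρ⟩ := G.neg_perm θ hU hV
  let θ' : ↥(D.group F) ≃* ↥(D.group F) := (G.tau F).symm.trans (θ.trans (G.tau F))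
  have hθ' : ∀ z, θ' (G.tau F z) = G.tau F (θ z) := by
    intro z
    simp [θ']
  have hU' : Carries θ' (D.posUnipotent F) (D.posUnipotent F) := by
    intro y
    obtain ⟨z, rfl⟩ := (G.tau F).surjective y
    rw [hθ', ← G.tau_V z, ← G.tau_V (θ z), hV z]
  have hV' : Carries θ' (D.negUnipotent F) (D.negUnipotent F) := by
    intro y
    obtain ⟨z, rfl⟩ := (G.tau F).surjective y
    rw [hθ', ← G.tau_U z, ← G.tau_U (θ z), hU z]
  obtain ⟨ρ', hρ'⟩ := G.neg_perm θ' hU' hV'
  have hpos : ∀ i : Fin D.rank, Carries θ (D.rootSubgroup F (D.simple i)) (D.rootSubgroup F (D.simple (ρ' i))) := by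
    intro i z
    have hlt := G.simple_lt i.isLt
    have hlt' := G.simple_lt (ρ' i).isLt
    rw [G.tau_X hlt z, hρ' i (G.tau F z), hθ', G.tau_X hlt' (θ z)]
  have heq : ρ' = ρ := by
    ext i
    by_contra hne
    have hne' : (ρ' i).val ≠ (ρ i).val := hne
    have hlt := G.simple_lt i.isLt
    have h1 := (hpos i (G.xR hlt 1)).1 (G.x_mem_X hlt 1)
    have h2 := (hρ i (G.xR (G.neg_lt hlt) 1)).1 (G.x_mem_X (G.neg_lt hlt) 1)
    obtain ⟨a, ha⟩ := G.toGood2.X_form (G.simple_lt (ρ' i).isLt) h1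
    obtain ⟨b, hb⟩ := G.toGood2.X_form (G.neg_lt (G.simple_lt (ρ i).isLt)) h2
    have hc := G.toGood4.toGood3.comm_simple_neg (ρ' i).isLt (ρ i).isLt hne' a b
    rw [← ha, ← hb] at hc
    have hc' : θ (G.xR (G.neg_lt hlt) 1) * θ (G.xR hlt 1) = θ (G.xR hlt 1) * θ (G.xR (G.neg_lt hlt) 1) := Subtype.ext hc
    rw [← map_mul, ← map_mul] at hc'
    have hc2 := θ.injective hc'
    have hc3 := congrArg Subtype.val hc2
    exact G.toGood2.not_comm i.val i.isLt hc3.symm
  subst heq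
  exact ⟨ρ', fun i => ⟨hpos i, hρ i⟩⟩

end Good5

end Cfsg.Agent.Lib.Chev
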