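import Cfsg.Agent.Lib.Chev.Aut.Neg

/-! Automorphisms of a Chevalley group: normalising `U` and `V`. -/

set_option autoImplicit false
set_option linter.unusedSimpArgs false
set_option linter.unusedVariables false
set_option linter.unusedSectionVars false

namespace Cfsg.Agent.Lib.Chev

open Cfsg Cfsg.Lie Matrix BNPair Cfsg.Agent.Lib.BN
open Good2 (NN)
open Good3 (QJ Shape Shape_mul Shape_diag_mul)

theorem exists_conj_of_sylow {Γ : Type*} [Group Γ] [Finite Γ] {p : ℕ} [Fact p.Prime] (U : Subgroup Γ)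
    (hp : IsPGroup p U) (hi : ¬ p ∣ U.index) (θ : Γ ≃* Γ) :
    ∃ g : Γ, ∀ y, y ∈ U ↔ g⁻¹ * θ y * g ∈ U := by
  have hp' : IsPGroup p (U.map θ.toMonoidHom) := hp.map _
  have hi' : ¬ p ∣ (U.map θ.toMonoidHom).index := by
    rw [Subgroup.index_map_of_bijective θ.bijective]
    exact hi
  obtain ⟨g, hg⟩ := MulAction.exists_smul_eq Γ (hp.toSylow hi) (hp'.toSylow hi')
  refine ⟨g, fun y => ?_⟩
  have h1 : θ y ∈ (g • hp.toSylow hi : Sylow p Γ) ↔ θ y ∈ U.map θ.toMonoidHom := by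
    rw [hg]
    simp
  have h2 : θ y ∈ (g • hp.toSylow hi : Sylow p Γ) ↔ g⁻¹ * θ y * g ∈ U := by
    show θ y ∈ ((g • hp.toSylow hi : Sylow p Γ) : Subgroup Γ) ↔ _
    rw [Sylow.coe_subgroup_smul, Subgroup.mem_pointwise_smul_iff_inv_smul_mem]
    simp [MulAut.smul_def, MulAut.conj_inv_apply]
  rw [← h2, h1]
  constructor
  · intro h
    exact ⟨y, h, rfl⟩
  · rintro ⟨z, hz, e⟩
    have : z = y := θ.injective e
    exact this ▸ hz

variable {D : ChevalleyDatum} {F : Type*} [Field F]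

/-- `θ` carries the part of `K` in the group onto the part of `L`. -/
def Carries (θ : ↥(D.group F) ≃* ↥(D.group F)) (K L : Subgroup (GL D.Idx F)) : Prop :=
  ∀ y : ↥(D.group F), (y : GL D.Idx F) ∈ K ↔ ((θ y : ↥(D.group F)) : GL D.Idx F) ∈ L

namespace Good2

variable (G : Good2 D)
include G

theorem pp_eq_one_of_lenN (F : Type*) [Field F] (l : List (Fin D.rank)) (h : lenN D (G.pp l) = 0) : G.pp l = 1 := by
  have hn : (⟨G.nw l, G.nw_mem_group l⟩ : ↥(D.group F)) ∈ (G.bnPair F).N := by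
    show (G.nw l : GL D.Idx F) ∈ D.monomialSubgroup F
    rw [G.monomial_eq]
    exact G.nw_mem_N0 l
  have h1 := G.len_eq hn (G.nw_isMono l)
  rw [h] at h1
  have h2 := (len_eq_zero_iff hn).1 h1
  have h3 : (G.nw l : GL D.Idx F) ∈ D.borelSubgroup F ⊓ G.N0 F := ⟨h2, G.nw_mem_N0 l⟩
  rw [G.B_inf_N0] at h3
  exact (G.nw_isMono (F := F) l).uniq (G.H_isMono h3)

/-- The length generating function is prime to the characteristic. -/
theorem not_dvd_SumJ (F : Type*) [Field F] {p q : ℕ} (hp : p.Prime) (hq : p ∣ q) :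
    ¬ p ∣ G.SumJ (List.range D.rank) q := by
  classical
  unfold SumJ
  have h1 : (1 : Equiv.Perm (Fin D.nroots)) ∈ Finset.univ.filter (fun w => w ∈ G.WJ (List.range D.rank)) := by
    simp only [Finset.mem_filter, Finset.mem_univ, true_and]
    exact Subgroup.one_mem _
  rw [← Finset.add_sum_erase _ _ h1, G.lenN_one, pow_zero]
  have h2 : p ∣ ∑ w ∈ (Finset.univ.filter (fun w => w ∈ G.WJ (List.range D.rank))).erase 1, q ^ lenN D w := by
    apply Finset.dvd_sum
    intro w hw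
    rw [Finset.mem_erase, Finset.mem_filter] at hw
    obtain ⟨hne, _, l, _, rfl⟩ := hw
    apply dvd_pow hq
    intro h0
    exact hne (G.pp_eq_one_of_lenN F l h0)
  intro hd
  have h3 := (Nat.dvd_add_left h2).1 hd
  exact hp.one_lt.ne' (Nat.dvd_one.mp h3)

/-- The diagonal subgroup has order prime to the characteristic. -/
theorem not_dvd_card_H [Finite F] {p : ℕ} [hp : Fact p.Prime] [CharP F p] :
    ¬ p ∣ Nat.card (D.diagonalSubgroup F) := by
  intro hd
  haveI : Finite ↥(D.diagonalSubgroup F) := inferInstance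
  obtain ⟨x, hx⟩ := exists_prime_orderOf_dvd_card' (G := ↥(D.diagonalSubgroup F)) p hd
  have hx1 : x ^ p = 1 := by rw [← hx]; exact pow_orderOf_eq_one x
  have hx2 : x = 1 := by
    apply Subtype.ext
    apply G.H_eq_one x.2
    intro s
    obtain ⟨χ, _, e⟩ := G.H_form x.2
    have h1 : ((x : GL D.Idx F) ^ p : GL D.Idx F) = 1 := by
      have := congrArg (Subtype.val) hx1
      simpa using this
    have h2 := congrArg (fun g : GL D.Idx F => (g : Matrix D.Idx D.Idx F) (Sum.inr s) (Sum.inr s)) h1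
    simp only [Units.val_pow_eq_pow_val, e, dgM, Matrix.diagonal_pow, Units.val_one, Matrix.one_apply_eq,
      Matrix.diagonal_apply_eq] at h2
    rw [e]
    simp only [dgM, Matrix.diagonal_apply_eq, Sum.elim_inr]
    have h3 := sub_pow_char (χ s.val) (1 : F)
    simp only [Pi.pow_apply, Sum.elim_inr] at h2
    rw [h2, one_pow, sub_self] at h3
    exact sub_eq_zero.mp (pow_eq_zero_iff hp.out.ne_zero |>.mp h3)
  rw [hx2, orderOf_one] at hx
  exact hp.out.one_lt.ne hx

/-- Sylow's theorem for `U`. -/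
theorem sylow_U [Finite F] (θ : ↥(D.group F) ≃* ↥(D.group F)) :
    ∃ g : ↥(D.group F), ∀ y : ↥(D.group F), (y : GL D.Idx F) ∈ D.posUnipotent F ↔
      (((g⁻¹ * θ y * g : ↥(D.group F))) : GL D.Idx F) ∈ D.posUnipotent F := by
  classical
  letI : Fintype F := Fintype.ofFinite F
  obtain ⟨p, hp⟩ := CharP.exists F
  haveI := hp
  obtain ⟨n, hpp, hc⟩ := FiniteField.card F p
  haveI : Fact p.Prime := ⟨hpp⟩
  have hle : D.posUnipotent F ≤ D.group F := le_trans G.U_le_B G.B_le_group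
  have hP : IsPGroup p ↥((D.posUnipotent F).subgroupOf (D.group F)) :=
    (G.U_pgroup (F := F) p).of_equiv (Subgroup.subgroupOfEquivOfLe hle).symm
  have hpq : p ∣ Fintype.card F := by
    rw [hc]
    exact dvd_pow_self p n.pos.ne'
  have hI : ¬ p ∣ ((D.posUnipotent F).subgroupOf (D.group F)).index := by
    have h1 := Subgroup.card_mul_index ((D.posUnipotent F).subgroupOf (D.group F))
    have h2 : Nat.card ↥((D.posUnipotent F).subgroupOf (D.group F)) = Fintype.card F ^ NN D := by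
      rw [Nat.card_congr (Subgroup.subgroupOfEquivOfLe hle).toEquiv, G.card_U]
    rw [h2, G.card_group rfl, mul_left_comm] at h1
    have h3 : 0 < Fintype.card F ^ NN D := pow_pos Fintype.card_pos _
    have h4 := Nat.eq_of_mul_eq_mul_left h3 h1
    rw [h4]
    intro hd
    rcases (Nat.Prime.dvd_mul hpp).1 hd with h5 | h5
    · exact G.not_dvd_SumJ F hpp hpq h5
    · exact G.not_dvd_card_H h5
  obtain ⟨g, hg⟩ := exists_conj_of_sylow _ hP hI θ
  exact ⟨g, fun y => hg y⟩

theorem U_le_group : D.posUnipotent F ≤ D.group F := le_trans G.U_le_B G.B_le_group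

theorem V_le_group : D.negUnipotent F ≤ D.group F := by
  rw [← G.U_sup_V]
  exact le_sup_right

/-- If a monomial element normalises `U` (on one side), it lies in `H`. -/
theorem mem_H_of_norm {n : GL D.Idx F} (hn : n ∈ G.N0 F) (h : ∀ z ∈ D.posUnipotent F, n * z * n⁻¹ ∈ D.posUnipotent F) :
    n ∈ D.diagonalSubgroup F := by
  obtain ⟨l, hl, hc⟩ := G.N0_conj_x hn
  have h1 : lenN D (G.pp l) = 0 := by
    unfold lenN
    rw [Finset.card_eq_zero, Finset.filter_eq_empty_iff]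
    rintro s - ⟨hs, hs'⟩
    obtain ⟨c, hc0, hc⟩ := hc s
    have h2 := h _ (G.xg_mem (P := D.IsPosRoot) s.isLt ((G.pos_iff s.isLt).mpr hs) (1 : F))
    rw [hc, mul_one] at h2
    have h3 := G.x_neg_mem_B (G.pp l s).isLt (by omega) (G.U_le_B h2)
    exact hc0 h3
  have h2 := G.pp_eq_one_of_lenN F l h1
  rw [h2] at hl
  exact G.H_of_isMono_one hn hl

/-- The normaliser of `U`. -/
theorem mem_B_of_norm {y : GL D.Idx F} (hy : y ∈ D.group F) (h : ∀ z ∈ D.posUnipotent F, y * z * y⁻¹ ∈ D.posUnipotent F) :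
    y ∈ D.borelSubgroup F := by
  obtain ⟨v, hv, k, hk, l, u, hu, rfl⟩ := G.bruhat4 hy
  have hn1 : k * G.nw l ∈ G.N0 F := Subgroup.mul_mem _ (G.H_le_N0 hk) (G.nw_mem_N0 l)
  have h1 : k * G.nw l ∈ D.diagonalSubgroup F := by
    apply G.mem_H_of_norm hn1
    intro z hz
    have h2 := h (u⁻¹ * z * u) (Subgroup.mul_mem _ (Subgroup.mul_mem _ (Subgroup.inv_mem _ hu) hz) hu)
    have h3 : v⁻¹ * (v * k * G.nw l * u * (u⁻¹ * z * u) * (v * k * G.nw l * u)⁻¹) * v ∈ D.posUnipotent F :=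
      Subgroup.mul_mem _ (Subgroup.mul_mem _ (Subgroup.inv_mem _ hv) h2) hv
    convert h3 using 1
    group
  have : v * k * G.nw l * u = v * (k * G.nw l) * u := by group
  rw [this]
  exact Subgroup.mul_mem _ (Subgroup.mul_mem _ (G.U_le_B hv) (G.H_le_B h1)) (G.U_le_B hu)

/-- The Borel subgroup normalises `U`. -/
theorem B_norm_U {y z : GL D.Idx F} (hy : y ∈ D.borelSubgroup F) (hz : z ∈ D.posUnipotent F) :
    y * z * y⁻¹ ∈ D.posUnipotent F := by
  obtain ⟨u, hu, k, hk, rfl⟩ := G.B_form.mp hy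
  have h1 := G.U_pos_conj hk hz
  have h2 := Subgroup.mul_mem _ (Subgroup.mul_mem _ hu h1) (Subgroup.inv_mem _ hu)
  convert h2 using 1
  group

/-- An automorphism preserving `U` preserves `B`. -/
theorem carries_B {θ : ↥(D.group F) ≃* ↥(D.group F)} (hθ : Carries θ (D.posUnipotent F) (D.posUnipotent F)) :
    Carries θ (D.borelSubgroup F) (D.borelSubgroup F) := by
  intro y
  constructor
  · intro hy
    apply G.mem_B_of_norm (θ y).2
    intro z hz
    let z0 : ↥(D.group F) := θ.symm ⟨z, G.U_le_group hz⟩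
    have hz0 : (z0 : GL D.Idx F) ∈ D.posUnipotent F := by
      rw [hθ z0]
      simpa [z0] using hz
    have h1 := G.B_norm_U hy hz0
    have h2 := (hθ (y * z0 * y⁻¹)).1 h1
    have e : θ (y * z0 * y⁻¹) = θ y * ⟨z, G.U_le_group hz⟩ * (θ y)⁻¹ := by
      simp [z0]
    rw [e] at h2
    exact h2
  · intro hy
    apply G.mem_B_of_norm y.2
    intro z hz
    have h0 : ((⟨z, G.U_le_group hz⟩ : ↥(D.group F)) : GL D.Idx F) ∈ D.posUnipotent F := hz
    have h1 := (hθ ⟨z, G.U_le_group hz⟩).1 h0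
    have h2 := G.B_norm_U hy h1
    have h3 : (((y * ⟨z, G.U_le_group hz⟩ * y⁻¹ : ↥(D.group F))) : GL D.Idx F) ∈ D.posUnipotent F := by
      rw [hθ]
      simpa using h2
    exact h3

end Good2

namespace Good3

variable (G : Good3 D)
include G

/-- Normalising an automorphism: up to an inner automorphism, it preserves `U` and `V`. -/
theorem normalize [Finite F] (θ : ↥(D.group F) ≃* ↥(D.group F)) :
    ∃ (x : ↥(D.group F)) (θ₁ : ↥(D.group F) ≃* ↥(D.group F)), (∀ y, θ y = x * θ₁ y * x⁻¹) ∧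
      Carries θ₁ (D.posUnipotent F) (D.posUnipotent F) ∧ Carries θ₁ (D.negUnipotent F) (D.negUnipotent F) := by
  obtain ⟨g, hg⟩ := G.toGood2.sylow_U θ
  -- first normalisation
  let θ₀ : ↥(D.group F) ≃* ↥(D.group F) := θ.trans (MulAut.conj g⁻¹)
  have hθ₀ : ∀ y, θ₀ y = g⁻¹ * θ y * g := fun y => by
    simp [θ₀, MulAut.conj_apply]
  have hU : ∀ y : ↥(D.group F), (y : GL D.Idx F) ∈ D.posUnipotent F ↔ ((θ₀ y : ↥(D.group F)) : GL D.Idx F) ∈ D.posUnipotent F := by
    intro y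
    rw [hθ₀]
    exact hg y
  -- the longest element
  let n : ↥(D.group F) := ⟨G.n0, G.toGood2.nw_mem_group _⟩
  let h : ↥(D.group F) := θ₀ n
  have hV0 : ∀ y : ↥(D.group F), (y : GL D.Idx F) ∈ D.negUnipotent F ↔
      (((h⁻¹ * θ₀ y * h : ↥(D.group F))) : GL D.Idx F) ∈ D.posUnipotent F := by
    intro y
    have e : h⁻¹ * θ₀ y * h = θ₀ (n⁻¹ * y * n) := by
      simp [h]
    rw [e, ← hU]
    rw [← G.n0_conj (F := F)]
    constructor
    · rintro ⟨u, hu, e'⟩
      have : (n⁻¹ * y * n : ↥(D.group F)).1 = u := by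
        show (G.n0 : GL D.Idx F)⁻¹ * (y : GL D.Idx F) * G.n0 = u
        rw [← e']
        simp [MulAut.conj_apply]
        group
      rw [this]
      exact hu
    · intro hh
      refine ⟨_, hh, ?_⟩
      show (G.n0 : GL D.Idx F) * ((G.n0 : GL D.Idx F)⁻¹ * (y : GL D.Idx F) * G.n0) * (G.n0 : GL D.Idx F)⁻¹ = (y : GL D.Idx F)
      group
  obtain ⟨v, hv, k, hk, l, u, hu, eh⟩ := G.toGood2.bruhat4 h.2
  have hn1 : k * G.toGood2.nw l ∈ G.toGood2.N0 F := Subgroup.mul_mem _ (G.toGood2.H_le_N0 hk) (G.toGood2.nw_mem_N0 l)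
  set n1 : GL D.Idx F := k * G.toGood2.nw l with hn1def
  have eh' : (h : GL D.Idx F) = v * n1 * u := by
    rw [eh, hn1def]
    group
  let v' : ↥(D.group F) := ⟨v, G.toGood2.U_le_group hv⟩
  have hV1 : ∀ y : ↥(D.group F), (y : GL D.Idx F) ∈ D.negUnipotent F ↔
      n1⁻¹ * (v⁻¹ * ((θ₀ y : ↥(D.group F)) : GL D.Idx F) * v) * n1 ∈ D.posUnipotent F := by
    intro y
    rw [hV0]
    have e : (((h⁻¹ * θ₀ y * h : ↥(D.group F))) : GL D.Idx F) =
        u⁻¹ * (n1⁻¹ * (v⁻¹ * ((θ₀ y : ↥(D.group F)) : GL D.Idx F) * v) * n1) * u := by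
      simp only [Subgroup.coe_mul, Subgroup.coe_inv, eh']
      group
    rw [e]
    constructor
    · intro h1
      have := Subgroup.mul_mem _ (Subgroup.mul_mem _ hu h1) (Subgroup.inv_mem _ hu)
      convert this using 1
      group
    · intro h1
      exact Subgroup.mul_mem _ (Subgroup.mul_mem _ (Subgroup.inv_mem _ hu) h1) hu
  -- the Weyl group element is the longest one
  obtain ⟨l', hl', hc⟩ := G.toGood2.N0_conj_x hn1
  have hneg : ∀ r : Fin D.nroots, NN D ≤ r.val → (G.toGood2.pp l' r).val < NN D := by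
    intro r hr
    by_contra hcon
    obtain ⟨c, hc0, hc1⟩ := hc r
    have hpos : G.xg (G.toGood2.pp l' r).isLt c ∈ D.posUnipotent F :=
      G.xg_mem _ ((G.toGood2.pos_iff (G.toGood2.pp l' r).isLt).mpr (by omega)) _
    let z : ↥(D.group F) := ⟨v * G.xg (G.toGood2.pp l' r).isLt c * v⁻¹, G.toGood2.U_le_group (Subgroup.mul_mem _ (Subgroup.mul_mem _ hv hpos) (Subgroup.inv_mem _ hv))⟩
    let y0 : ↥(D.group F) := θ₀.symm z
    have hy0U : (y0 : GL D.Idx F) ∈ D.posUnipotent F := by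
      rw [hU y0]
      simp only [y0, MulEquiv.apply_symm_apply]
      exact Subgroup.mul_mem _ (Subgroup.mul_mem _ hv hpos) (Subgroup.inv_mem _ hv)
    have hy0V : (y0 : GL D.Idx F) ∈ D.negUnipotent F := by
      rw [hV1 y0]
      simp only [y0, MulEquiv.apply_symm_apply]
      have e1 := hc1 1
      rw [mul_one] at e1
      have e2 : n1⁻¹ * (v⁻¹ * (z : GL D.Idx F) * v) * n1 = G.xg r.isLt 1 := by
        show n1⁻¹ * (v⁻¹ * (v * G.xg (G.toGood2.pp l' r).isLt c * v⁻¹) * v) * n1 = _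
        rw [← e1]
        group
      rw [e2]
      exact G.xg_mem _ ((G.toGood2.pos_iff r.isLt).mpr hr) _
    have hy1 : (y0 : GL D.Idx F) ∈ D.borelSubgroup F ⊓ D.negUnipotent F := ⟨G.toGood2.U_le_B hy0U, hy0V⟩
    rw [G.toGood2.B_inf_V, Subgroup.mem_bot] at hy1
    have hy2 : y0 = 1 := Subtype.ext hy1
    have hz1 : z = 1 := by
      have : θ₀ y0 = z := by simp [y0]
      rw [← this, hy2, map_one]
    have hz2 : v * G.xg (G.toGood2.pp l' r).isLt c * v⁻¹ = 1 := congrArg Subtype.val hz1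
    have hz3 : G.xg (G.toGood2.pp l' r).isLt c = 1 := by
      have := congrArg (fun a => v⁻¹ * a * v) hz2
      simpa [mul_assoc] using this
    exact hc0 (G.toGood2.xg_eq_one _ hz3)
  have hVV := G.toGood2.conj_U_V hn1 hl' hneg
  have hθ₁ : ∀ y, (((θ₀.trans (MulAut.conj v'⁻¹)) y : ↥(D.group F)) : GL D.Idx F) =
      v⁻¹ * ((θ₀ y : ↥(D.group F)) : GL D.Idx F) * v := by
    intro y
    simp [MulAut.conj_apply, v']
  refine ⟨g * v', θ₀.trans (MulAut.conj v'⁻¹), ?_, ?_, ?_⟩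
  · intro y
    simp only [MulEquiv.trans_apply, MulAut.conj_apply, hθ₀]
    group
  · intro y
    rw [hU y, hθ₁]
    constructor
    · intro h1
      exact Subgroup.mul_mem _ (Subgroup.mul_mem _ (Subgroup.inv_mem _ hv) h1) hv
    · intro h1
      have := Subgroup.mul_mem _ (Subgroup.mul_mem _ hv h1) (Subgroup.inv_mem _ hv)
      convert this using 1
      group
  · intro y
    rw [hV1 y, hθ₁, ← hVV]
    exact mem_cjS.symm

end Good3

end Cfsg.Agent.Lib.Chev
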