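import Cfsg.Agent.Lib.Chev.Aut.Pres
import Cfsg.Prelude.Def_KGroupFacts

/-! The order of the outer automorphism group. -/

set_option autoImplicit false
set_option linter.unusedSimpArgs false
set_option linter.unusedVariables false
set_option linter.unusedSectionVars false
set_option linter.style.haveILetI false

namespace Cfsg.Agent.Lib.Chev

open Cfsg Cfsg.Lie Matrix BNPair Cfsg.Agent.Lib.BN
open Good2 (NN)
open Good3 (QJ Shape Shape_mul Shape_diag_mul)

variable {D : ChevalleyDatum} {F : Type*} [Field F]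

/-- Extension of a tuple of units by one. -/
noncomputable def bN (b : Fin D.rank → Fˣ) (k : ℕ) : Fˣ := if hk : k < D.rank then b ⟨k, hk⟩ else 1

theorem bN_val (b : Fin D.rank → Fˣ) (i : Fin D.rank) : bN b i.val = b i := by
  simp [bN, i.isLt]

theorem bN_lt (b : Fin D.rank → Fˣ) {i : ℕ} (hi : i < D.rank) : bN b i = b ⟨i, hi⟩ := by
  simp [bN, hi]

namespace Good3

variable (G : Good3 D)

/-- The diagonal automorphism of a root character. -/
noncomputable def dgAut (G : Good3 D) (b : ℕ → Fˣ) : ↥(D.group F) ≃* ↥(D.group F) :=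
  G.conjAut (dgU (G.chiU_isChi b))
    (fun r hr t => by rw [G.dgU_conj (G.chiU_isChi b) hr t]; exact G.toGood2.xg_mem_grp _ _)
    (fun r hr t => by rw [G.dgU_inv_conj (G.chiU_isChi b) hr t]; exact G.toGood2.xg_mem_grp _ _)

include G

theorem dgAut_x (b : ℕ → Fˣ) {r : ℕ} (hr : r < D.nroots) (t : F) :
    G.dgAut b (G.toGood2.xR hr t) = G.toGood2.xR hr ((G.chiU b r : F) * t) := by
  apply Subtype.ext
  exact G.dgU_conj (G.chiU_isChi b) hr t

theorem dgAut_symm_x (b : ℕ → Fˣ) {r : ℕ} (hr : r < D.nroots) (t : F) :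
    (G.dgAut b).symm (G.toGood2.xR hr t) = G.toGood2.xR hr ((G.chiU b r : F)⁻¹ * t) := by
  apply Subtype.ext
  exact G.dgU_inv_conj (G.chiU_isChi b) hr t

theorem dgAut_pres (b : ℕ → Fˣ) : Pres (G.dgAut (F := F) b) :=
  G.toGood2.pres_of_fix (fun r hr t => G.dgAut_x b hr t) (fun r hr t => G.dgAut_symm_x b hr t)

theorem dgAut_diag (b : ℕ → Fˣ) : D.IsDiagonalAut (G.dgAut (F := F) b) := by
  refine ⟨G.chiU b, G.chiU_root b, fun g => ?_⟩
  have e : D.charDiag F (fun r => (G.chiU b r)⁻¹) = dgM D (fun s => ((G.chiU b s : F))⁻¹) := by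
    unfold ChevalleyDatum.charDiag dgM
    simp
  rw [e]
  rfl

end Good3

namespace Good5

variable (G : Good5 D)

/-- The field automorphism attached to a field automorphism. -/
noncomputable def fA (σ : F ≃+* F) : ↥(D.group F) ≃* ↥(D.group F) := Classical.choose (field_aut (D := D) σ)

include G

theorem fA_x (σ : F ≃+* F) {r : ℕ} (hr : r < D.nroots) (t : F) : fA σ (G.toGood2.xR hr t) = G.toGood2.xR hr (σ t) := by
  apply Subtype.ext
  apply Units.ext
  exact Classical.choose_spec (field_aut (D := D) σ) (G.toGood2.xR hr t) r t hr rfl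

theorem fA_symm_x (σ : F ≃+* F) {r : ℕ} (hr : r < D.nroots) (t : F) : (fA σ).symm (G.toGood2.xR hr t) = G.toGood2.xR hr (σ.symm t) := by
  rw [MulEquiv.symm_apply_eq, G.fA_x, RingEquiv.apply_symm_apply]

theorem fA_pres (σ : F ≃+* F) : Pres (fA (D := D) σ) :=
  G.toGood2.pres_of_fix (fun r hr t => G.fA_x σ hr t) (fun r hr t => G.fA_symm_x σ hr t)

theorem fA_field (σ : F ≃+* F) : D.IsFieldAut (fA (D := D) σ) :=
  ⟨σ, Classical.choose_spec (field_aut (D := D) σ)⟩

/-- The form of an automorphism preserving `U` and `V`. -/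
theorem pres_form [Finite F] {θ : ↥(D.group F) ≃* ↥(D.group F)} (hθ : Pres θ) :
    ∃ (ρ : Equiv.Perm (Fin D.rank)) (c : Fin D.rank → Fˣ) (σ : Fin D.rank → (F ≃+* F)), ∀ (i : Fin D.rank) (t : F),
      θ (G.toGood2.xR (G.simple_lt i.isLt) t) = G.toGood2.xR (G.simple_lt (ρ i).isLt) ((c i : F) * σ i t) ∧
      θ (G.toGood2.xR (G.neg_lt (G.simple_lt i.isLt)) t) = G.toGood2.xR (G.neg_lt (G.simple_lt (ρ i).isLt)) ((c i : F)⁻¹ * σ i t) := by
  obtain ⟨ρ, hρ⟩ := G.root_perm θ hθ.1 hθ.2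
  have nf := fun i : Fin D.rank => G.node_form i.isLt (ρ i).isLt (hρ i).1 (hρ i).2
  choose c σ hc hf using nf
  exact ⟨ρ, fun i => Units.mk0 (c i) (hc i), σ, hf⟩

end Good5

/-- The form of a graph automorphism on the fundamental root elements. -/
def GW (G : Good5 D) (g : ↥(D.group F) ≃* ↥(D.group F)) (ρ : Equiv.Perm (Fin D.rank)) : Prop :=
  ∀ (i : Fin D.rank) (t : F),
    g (G.toGood2.xR (G.simple_lt i.isLt) t) = G.toGood2.xR (G.simple_lt (ρ i).isLt) (t ^ D.graphExp (ringChar F) i (ρ i)) ∧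
    g (G.toGood2.xR (G.neg_lt (G.simple_lt i.isLt)) t) = G.toGood2.xR (G.neg_lt (G.simple_lt (ρ i).isLt)) (t ^ D.graphExp (ringChar F) i (ρ i))

/-- The realised diagram symmetries. -/
def GP (G : Good5 D) (F : Type*) [Field F] : Set (Equiv.Perm (Fin D.rank)) :=
  {ρ | ∃ g : ↥(D.group F) ≃* ↥(D.group F), Pres g ∧ GW G g ρ}

namespace Good5

variable (G : Good5 D)

/-- The family of diagonal automorphisms. -/
noncomputable def dgHom (G : Good5 D) (hrc : ∀ i, i < D.rank → G.rc (D.simple i) i = 1) : (Fin D.rank → Fˣ) →* MulAut ↥(D.group F) :=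
  MonoidHom.mk' (fun b => G.toGood4.toGood3.dgAut (bN b)) (by
    intro a b
    apply G.toGood2.aut_ext
    · intro i hi t
      show G.toGood4.toGood3.dgAut (bN (a * b)) _ = G.toGood4.toGood3.dgAut (bN a) (G.toGood4.toGood3.dgAut (bN b) _)
      rw [G.toGood4.toGood3.dgAut_x, G.toGood4.toGood3.dgAut_x, G.toGood4.toGood3.dgAut_x,
        G.toGood4.toGood3.chiU_simple _ hrc hi, G.toGood4.toGood3.chiU_simple _ hrc hi, G.toGood4.toGood3.chiU_simple _ hrc hi,
        bN_lt _ hi, bN_lt _ hi, bN_lt _ hi, Pi.mul_apply, Units.val_mul, mul_assoc]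
    · intro i hi t
      show G.toGood4.toGood3.dgAut (bN (a * b)) _ = G.toGood4.toGood3.dgAut (bN a) (G.toGood4.toGood3.dgAut (bN b) _)
      rw [G.toGood4.toGood3.dgAut_x, G.toGood4.toGood3.dgAut_x, G.toGood4.toGood3.dgAut_x,
        G.toGood4.toGood3.chiU_neg _ (G.simple_lt hi), G.toGood4.toGood3.chiU_neg _ (G.simple_lt hi), G.toGood4.toGood3.chiU_neg _ (G.simple_lt hi),
        G.toGood4.toGood3.chiU_simple _ hrc hi, G.toGood4.toGood3.chiU_simple _ hrc hi, G.toGood4.toGood3.chiU_simple _ hrc hi,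
        bN_lt _ hi, bN_lt _ hi, bN_lt _ hi, Pi.mul_apply]
      simp only [Units.val_inv_eq_inv_val, Units.val_mul, mul_inv]
      rw [mul_assoc])

variable (hrc : ∀ i, i < D.rank → G.rc (D.simple i) i = 1)
include G hrc

theorem dgHom_simple (b : Fin D.rank → Fˣ) (i : Fin D.rank) (t : F) :
    (G.dgHom hrc b : ↥(D.group F) ≃* ↥(D.group F)) (G.toGood2.xR (G.simple_lt i.isLt) t) = G.toGood2.xR (G.simple_lt i.isLt) ((b i : F) * t) := by
  show G.toGood4.toGood3.dgAut (bN b) _ = _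
  rw [G.toGood4.toGood3.dgAut_x, G.toGood4.toGood3.chiU_simple _ hrc i.isLt, bN_val]

theorem dgHom_neg (b : Fin D.rank → Fˣ) (i : Fin D.rank) (t : F) :
    (G.dgHom hrc b : ↥(D.group F) ≃* ↥(D.group F)) (G.toGood2.xR (G.neg_lt (G.simple_lt i.isLt)) t) = G.toGood2.xR (G.neg_lt (G.simple_lt i.isLt)) ((b i : F)⁻¹ * t) := by
  show G.toGood4.toGood3.dgAut (bN b) _ = _
  rw [G.toGood4.toGood3.dgAut_x, G.toGood4.toGood3.chiU_neg _ (G.simple_lt i.isLt), G.toGood4.toGood3.chiU_simple _ hrc i.isLt, bN_val]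
  simp

theorem dgHom_pres (b : Fin D.rank → Fˣ) : Pres (G.dgHom hrc b : ↥(D.group F) ≃* ↥(D.group F)) :=
  G.toGood4.toGood3.dgAut_pres _

theorem dgHom_diag (b : Fin D.rank → Fˣ) : D.IsDiagonalAut (G.dgHom hrc b : ↥(D.group F) ≃* ↥(D.group F)) :=
  G.toGood4.toGood3.dgAut_diag _

/-- Decomposition of automorphisms. -/
theorem decomp [Finite F]
    (hT1 : ∀ i j, i < D.rank → j < D.rank → i ≠ j → D.cartan i (D.simple j) = 0 →
      G.W j (D.simple i) = D.simple i ∧ G.S j (D.simple i) = 1)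
    (hfin : ∀ (ρ : Equiv.Perm (Fin D.rank)) (σ : Fin D.rank → (F ≃+* F)), NodeRel D ρ σ → ZeroPat D ρ →
      D.IsDiagramSymmetry ρ ∧ ∃ σ₀ : F ≃+* F, ∀ (i : Fin D.rank) (t : F), σ i t = (σ₀ t) ^ D.graphExp (ringChar F) i (ρ i))
    (θ : ↥(D.group F) ≃* ↥(D.group F)) :
    ∃ (x : ↥(D.group F)) (b : Fin D.rank → Fˣ) (ρ : Equiv.Perm (Fin D.rank)) (g : ↥(D.group F) ≃* ↥(D.group F)) (σ₀ : F ≃+* F),
      Pres g ∧ GW G g ρ ∧ D.IsDiagramSymmetry ρ ∧ θ = (MulAut.conj x : MulAut ↥(D.group F)) * G.dgHom hrc b * g * fA σ₀ := by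
  obtain ⟨x, θ₁, hx, hU, hV⟩ := G.toGood4.toGood3.normalize θ
  have hP₁ : Pres θ₁ := ⟨hU, hV⟩
  obtain ⟨ρ, c, σ, hf⟩ := G.pres_form hP₁
  let b : Fin D.rank → Fˣ := fun k => c (ρ.symm k)
  have hb : ∀ i, b (ρ i) = c i := fun i => by simp [b]
  let θ₂ : MulAut ↥(D.group F) := (G.dgHom hrc b)⁻¹ * θ₁
  have hθ₂ : ∀ (i : Fin D.rank) (t : F), θ₂ (G.toGood2.xR (G.simple_lt i.isLt) t) = G.toGood2.xR (G.simple_lt (ρ i).isLt) (σ i t) ∧
      θ₂ (G.toGood2.xR (G.neg_lt (G.simple_lt i.isLt)) t) = G.toGood2.xR (G.neg_lt (G.simple_lt (ρ i).isLt)) (σ i t) := by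
    intro i t
    obtain ⟨h1, h2⟩ := hf i t
    constructor
    · show (G.dgHom hrc b : ↥(D.group F) ≃* ↥(D.group F)).symm (θ₁ _) = _
      rw [MulEquiv.symm_apply_eq, h1, G.dgHom_simple hrc b, hb]
    · show (G.dgHom hrc b : ↥(D.group F) ≃* ↥(D.group F)).symm (θ₁ _) = _
      rw [MulEquiv.symm_apply_eq, h2, G.dgHom_neg hrc b, hb]
  have hP₂ : Pres θ₂ := (G.dgHom_pres hrc b).inv.mul hP₁
  obtain ⟨h1, h2⟩ := G.node_rels hT1 hθ₂
  obtain ⟨hsym, σ₀, hσ₀⟩ := hfin ρ σ h1 h2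
  let g : MulAut ↥(D.group F) := θ₂ * (fA σ₀)⁻¹
  refine ⟨x, b, ρ, g, σ₀, hP₂.mul (G.fA_pres σ₀).inv, ?_, hsym, ?_⟩
  · intro i t
    constructor
    · show θ₂ ((fA σ₀).symm _) = _
      rw [G.fA_symm_x, (hθ₂ i _).1, hσ₀, RingEquiv.apply_symm_apply]
    · show θ₂ ((fA σ₀).symm _) = _
      rw [G.fA_symm_x, (hθ₂ i _).2, hσ₀, RingEquiv.apply_symm_apply]
  · apply MulEquiv.ext
    intro y
    show θ y = (MulAut.conj x : MulAut ↥(D.group F)) (G.dgHom hrc b (θ₂ ((fA σ₀)⁻¹ (fA σ₀ y))))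
    have e1 : (fA σ₀)⁻¹ (fA (D := D) σ₀ y) = y := by simp
    rw [e1]
    show θ y = (MulAut.conj x : MulAut ↥(D.group F)) (G.dgHom hrc b ((G.dgHom hrc b)⁻¹ (θ₁ y)))
    have e2 : (G.dgHom hrc b) ((G.dgHom hrc b)⁻¹ (θ₁ y)) = θ₁ y := by
      simp
    rw [e2, hx, MulAut.conj_apply]

/-- Conjugation by an element of `H`. -/
theorem conj_torus (c : Fin D.rank → Fˣ) :
    (MulAut.conj (⟨G.toGood2.torusHom c, G.toGood2.H_le_group (by
        rw [← G.toGood2.torusHom_range]; exact ⟨c, rfl⟩)⟩ : ↥(D.group F)) : MulAut ↥(D.group F)) =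
      G.dgHom hrc (act (cartanFin D) c) := by
  have hχ := G.toGood2.chiL_isChi (List.range D.rank) (fun i hi => List.mem_range.mp hi) (extU c)
    (fun i _ => extU_ne c i)
  have hval : ∀ i : Fin D.rank, chiL D (List.range D.rank) (extU c) (D.simple i) = ((act (cartanFin D) c i : Fˣ) : F) := by
    intro i
    rw [chiL_extU_simple, act_apply, Units.coe_prod]
    rfl
  apply G.toGood2.aut_ext
  · intro i hi t
    rw [G.dgHom_simple hrc _ ⟨i, hi⟩]
    apply Subtype.ext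
    rw [MulAut.conj_apply]
    show dgU hχ * G.xg (G.simple_lt hi) t * (dgU hχ)⁻¹ = G.xg (G.simple_lt hi) _
    rw [G.toGood4.toGood3.dgU_conj hχ, hval ⟨i, hi⟩]
  · intro i hi t
    rw [G.dgHom_neg hrc _ ⟨i, hi⟩]
    apply Subtype.ext
    rw [MulAut.conj_apply]
    show dgU hχ * G.xg (G.neg_lt (G.simple_lt hi)) t * (dgU hχ)⁻¹ = G.xg (G.neg_lt (G.simple_lt hi)) _
    rw [G.toGood4.toGood3.dgU_conj hχ]
    have h1 := hχ.neg _ (G.simple_lt hi)
    have h2 := hval ⟨i, hi⟩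
    simp only at h2
    rw [h2] at h1
    rw [eq_inv_of_mul_eq_one_left h1]

omit hrc in
theorem exists_exp_one (c : ℕ) (ρ : Equiv.Perm (Fin D.rank)) : ∃ i : Fin D.rank, D.graphExp c i (ρ i) = 1 := by
  have i₀ : Fin D.rank := ⟨0, G.rank_pos⟩
  by_cases h : D.graphExp c i₀ (ρ i₀) = 1
  · exact ⟨i₀, h⟩
  · refine ⟨ρ i₀, ?_⟩
    unfold ChevalleyDatum.graphExp at h ⊢
    by_cases h1 : D.isLong (D.simple (ρ i₀)) = true
    · simp [h1]
    · simp [h1] at h

/-- Uniqueness of the decomposition. -/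
theorem decomp_unique [Finite F] {b b' : Fin D.rank → Fˣ} {ρ ρ' : Equiv.Perm (Fin D.rank)}
    {g g' : ↥(D.group F) ≃* ↥(D.group F)} {σ σ' : F ≃+* F} {y : ↥(D.group F)}
    (hg : Pres g) (hw : GW G g ρ) (hg' : Pres g') (hw' : GW G g' ρ')
    (h : G.dgHom hrc b * g * fA σ = (MulAut.conj y : MulAut ↥(D.group F)) * (G.dgHom hrc b' * g' * fA σ')) :
    ρ = ρ' ∧ σ = σ' ∧ ∃ c, b = act (cartanFin D) c * b' := by
  have hP : Pres (G.dgHom hrc b * g * fA σ : MulAut ↥(D.group F)) := ((G.dgHom_pres hrc b).mul hg).mul (G.fA_pres σ)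
  have hP' : Pres (G.dgHom hrc b' * g' * fA σ' : MulAut ↥(D.group F)) := ((G.dgHom_pres hrc b').mul hg').mul (G.fA_pres σ')
  have hy : (MulAut.conj y : MulAut ↥(D.group F)) = (G.dgHom hrc b * g * fA σ) * (G.dgHom hrc b' * g' * fA σ')⁻¹ := by
    rw [h, mul_inv_cancel_right]
  have hPy : Pres (MulAut.conj y : MulAut ↥(D.group F)) := by
    rw [hy]
    exact hP.mul hP'.inv
  have hyH := G.toGood4.toGood3.inn_pres hPy
  rw [← G.toGood2.torusHom_range] at hyH
  obtain ⟨c, hc⟩ := hyH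
  have ey : y = ⟨G.toGood2.torusHom c, G.toGood2.H_le_group (by
        rw [← G.toGood2.torusHom_range]; exact ⟨c, rfl⟩)⟩ := Subtype.ext hc.symm
  have hconj := G.conj_torus hrc c
  rw [← ey] at hconj
  rw [hconj, ← mul_assoc, ← mul_assoc, ← map_mul] at h
  set B : Fin D.rank → Fˣ := act (cartanFin D) c * b' with hB
  have ev : ∀ (i : Fin D.rank) (t : F), G.toGood2.xR (G.simple_lt (ρ i).isLt) ((b (ρ i) : F) * (σ t) ^ D.graphExp (ringChar F) i (ρ i)) =
      G.toGood2.xR (G.simple_lt (ρ' i).isLt) ((B (ρ' i) : F) * (σ' t) ^ D.graphExp (ringChar F) i (ρ' i)) := by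
    intro i t
    have h1 := congrArg (fun α : MulAut ↥(D.group F) => α (G.toGood2.xR (G.simple_lt i.isLt) t)) h
    simp only [MulAut.mul_apply] at h1
    rw [G.fA_x, G.fA_x, (hw i _).1, (hw' i _).1, G.dgHom_simple hrc, G.dgHom_simple hrc] at h1
    exact h1
  have hρ : ρ = ρ' := by
    ext i
    have h1 := ev i 1
    simp only [map_one, one_pow, mul_one] at h1
    have h2 := G.toGood2.x_root_eq' (G.simple_lt (ρ i).isLt) (G.toGood2.simple_pos (ρ i).isLt) (G.simple_lt (ρ' i).isLt)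
      (Units.ne_zero _) (Units.ne_zero _) (congrArg Subtype.val h1)
    have h3 := G.toGood2.simple_inj (ρ' i).isLt (ρ i).isLt h2
    exact h3.symm
  subst hρ
  have hbB : ∀ j, b j = B j := by
    intro j
    obtain ⟨i, rfl⟩ := ρ.surjective j
    have h1 := ev i 1
    simp only [map_one, one_pow, mul_one] at h1
    exact Units.ext (G.toGood2.xR_inj _ h1)
  refine ⟨rfl, ?_, c, funext hbB⟩
  obtain ⟨i, hi⟩ := G.exists_exp_one (ringChar F) ρ
  ext t
  have h1 := ev i t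
  rw [hi, pow_one, pow_one, hbB] at h1
  have h2 := G.toGood2.xR_inj _ h1
  exact mul_left_cancel₀ (Units.ne_zero _) h2

end Good5

theorem card_hom {A B : Type*} [Group A] [Group B] [Finite A] (f : A →* B) :
    Nat.card A = Nat.card f.ker * Nat.card f.range := by
  have h1 := Subgroup.card_mul_index f.ker
  rw [Subgroup.index_ker] at h1
  exact h1.symm

namespace Good5

variable (G : Good5 D)

/-- The image of the diagonal automorphisms in the outer automorphism group. -/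
noncomputable def barD (G : Good5 D) (hrc : ∀ i, i < D.rank → G.rc (D.simple i) i = 1) :
    (Fin D.rank → Fˣ) →* Out ↥(D.group F) :=
  (QuotientGroup.mk' (Inn ↥(D.group F))).comp (G.dgHom hrc)

variable (hrc : ∀ i, i < D.rank → G.rc (D.simple i) i = 1)
include G hrc

theorem barD_ker [Finite F] : (G.barD (F := F) hrc).ker = (act (cartanFin D) : (Fin D.rank → Fˣ) →* (Fin D.rank → Fˣ)).range := by
  ext b
  rw [MonoidHom.mem_ker]
  constructor
  · intro h
    have h1 : G.dgHom hrc b ∈ Inn ↥(D.group F) := (QuotientGroup.eq_one_iff _).mp h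
    obtain ⟨y, hy⟩ := h1
    have h2 := G.decomp_unique (F := F) hrc (b := b) (b' := 1) (ρ := 1) (ρ' := 1) (g := 1) (g' := 1) (σ := RingEquiv.refl F) (σ' := RingEquiv.refl F) (y := y)
      Pres.one (by
        intro i t
        simp only [MulAut.one_apply, Equiv.Perm.one_apply]
        unfold ChevalleyDatum.graphExp
        simp) Pres.one (by
        intro i t
        simp only [MulAut.one_apply, Equiv.Perm.one_apply]
        unfold ChevalleyDatum.graphExp
        simp) (by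
        have e : fA (D := D) (RingEquiv.refl F) = 1 := by
          apply G.toGood2.aut_ext
          · intro i hi t
            rw [G.fA_x]
            rfl
          · intro i hi t
            rw [G.fA_x]
            rfl
        rw [e, map_one, mul_one, mul_one, mul_one, mul_one, mul_one]
        exact hy.symm)
    obtain ⟨_, _, c, hc⟩ := h2
    exact ⟨c, by rw [hc, mul_one]⟩
  · rintro ⟨c, rfl⟩
    apply (QuotientGroup.eq_one_iff _).mpr
    rw [← G.conj_torus hrc c]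
    exact ⟨_, rfl⟩

/-- The order of the image of the diagonal automorphisms. -/
theorem barD_card [Fintype F] {q : ℕ} (hq : Fintype.card F = q) :
    Nat.card (G.barD (F := F) hrc).range * Nat.card (D.diagonalSubgroup F) = (q - 1) ^ D.rank := by
  have h1 := card_hom (G.barD (F := F) hrc)
  have h2 := card_hom (act (cartanFin D) : (Fin D.rank → Fˣ) →* (Fin D.rank → Fˣ))
  have h3 := card_hom (G.toGood2.torusHom (F := F))
  rw [G.barD_ker hrc] at h1
  rw [G.toGood2.torusHom_range, G.toGood2.torusHom_ker] at h3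
  have hc : 0 < Nat.card (act (cartanFin D) : (Fin D.rank → Fˣ) →* (Fin D.rank → Fˣ)).ker := Nat.card_pos
  have h4 : Nat.card (act (cartanFin D) : (Fin D.rank → Fˣ) →* (Fin D.rank → Fˣ)).range = Nat.card (D.diagonalSubgroup F) :=
    Nat.eq_of_mul_eq_mul_left hc (h2.symm.trans h3)
  rw [h4] at h1
  have h5 : Nat.card (Fin D.rank → Fˣ) = (q - 1) ^ D.rank := by
    rw [Nat.card_pi]
    simp only [Finset.prod_const, Finset.card_univ, Fintype.card_fin]
    congr 1
    rw [Nat.card_units]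
    simp [hq]
  rw [← h5, h1, mul_comm]

/-- The order of the outer automorphism group. -/
theorem out_card [Finite F]
    (hT1 : ∀ i j, i < D.rank → j < D.rank → i ≠ j → D.cartan i (D.simple j) = 0 →
      G.W j (D.simple i) = D.simple i ∧ G.S j (D.simple i) = 1)
    (hfin : ∀ (ρ : Equiv.Perm (Fin D.rank)) (σ : Fin D.rank → (F ≃+* F)), NodeRel D ρ σ → ZeroPat D ρ →
      D.IsDiagramSymmetry ρ ∧ ∃ σ₀ : F ≃+* F, ∀ (i : Fin D.rank) (t : F), σ i t = (σ₀ t) ^ D.graphExp (ringChar F) i (ρ i)) :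
    Nat.card (Out ↥(D.group F)) = Nat.card (G.barD (F := F) hrc).range * (Nat.card (GP G F) * Nat.card (F ≃+* F)) := by
  classical
  let mk : MulAut ↥(D.group F) →* Out ↥(D.group F) := QuotientGroup.mk' (Inn ↥(D.group F))
  have hmkInn : ∀ α : MulAut ↥(D.group F), mk α = 1 ↔ α ∈ Inn ↥(D.group F) := fun α => QuotientGroup.eq_one_iff _
  have hgr : ∀ ρ : GP G F, ∃ g : ↥(D.group F) ≃* ↥(D.group F), Pres g ∧ GW G g ρ.1 := fun ρ => ρ.2
  choose gr hgrP hgrW using hgr
  let Ψ : (G.barD (F := F) hrc).range × GP G F × (F ≃+* F) → Out ↥(D.group F) :=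
    fun a => a.1.1 * mk (gr a.2.1) * mk (fA a.2.2)
  have hbij : Function.Bijective Ψ := by
    constructor
    · rintro ⟨⟨_, b, rfl⟩, ρ, σ⟩ ⟨⟨_, b', rfl⟩, ρ', σ'⟩ he
      have he1 : mk (G.dgHom hrc b * gr ρ * fA σ) = mk (G.dgHom hrc b' * gr ρ' * fA σ') := by
        rw [map_mul, map_mul, map_mul, map_mul]
        exact he
      have he2 : mk ((G.dgHom hrc b * gr ρ * fA σ) * (G.dgHom hrc b' * gr ρ' * fA σ')⁻¹) = 1 := by
        rw [map_mul, map_inv, he1, mul_inv_cancel]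
      obtain ⟨y, hy⟩ := (hmkInn _).mp he2
      have he3 : G.dgHom hrc b * gr ρ * fA σ = (MulAut.conj y : MulAut ↥(D.group F)) * (G.dgHom hrc b' * gr ρ' * fA σ') := by
        rw [show (MulAut.conj : ↥(D.group F) →* MulAut ↥(D.group F)) y = _ from hy, inv_mul_cancel_right]
      obtain ⟨h1, h2, c, h3⟩ := G.decomp_unique hrc (hgrP ρ) (hgrW ρ) (hgrP ρ') (hgrW ρ') he3
      have hρ : ρ = ρ' := Subtype.ext h1
      subst hρ
      subst h2
      have h4 : G.barD (F := F) hrc b = G.barD hrc b' := by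
        rw [h3, map_mul]
        have : G.barD (F := F) hrc (act (cartanFin D) c) = 1 := by
          have h5 : act (cartanFin D) c ∈ (G.barD (F := F) hrc).ker := by
            rw [G.barD_ker hrc]
            exact ⟨c, rfl⟩
          exact h5
        rw [this, one_mul]
      simp only [h4]
    · intro q
      obtain ⟨θ, rfl⟩ := QuotientGroup.mk_surjective q
      obtain ⟨x, b, ρ, g, σ₀, hg, hw, _, e⟩ := G.decomp hrc hT1 hfin θ
      have hρ : ρ ∈ GP G F := ⟨g, hg, hw⟩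
      have hgg : gr ⟨ρ, hρ⟩ = g := by
        apply G.toGood2.aut_ext
        · intro i hi t
          rw [(hgrW ⟨ρ, hρ⟩ ⟨i, hi⟩ t).1, (hw ⟨i, hi⟩ t).1]
        · intro i hi t
          rw [(hgrW ⟨ρ, hρ⟩ ⟨i, hi⟩ t).2, (hw ⟨i, hi⟩ t).2]
      refine ⟨(⟨G.barD hrc b, b, rfl⟩, ⟨ρ, hρ⟩, σ₀), ?_⟩
      show G.barD hrc b * mk (gr ⟨ρ, hρ⟩) * mk (fA σ₀) = mk θ
      rw [hgg, e, map_mul, map_mul, map_mul]
      have h1 : mk (MulAut.conj x) = 1 := (hmkInn _).mpr ⟨x, rfl⟩
      rw [h1, one_mul]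
      rfl
  rw [← Nat.card_congr (Equiv.ofBijective Ψ hbij), Nat.card_prod, Nat.card_prod]

end Good5

end Cfsg.Agent.Lib.Chev
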