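import Cfsg.Agent.Lib.Chev.Aut.Node

/-! Diagonal automorphisms with prescribed values on the fundamental roots. -/

set_option autoImplicit false
set_option linter.unusedSimpArgs false
set_option linter.unusedVariables false
set_option linter.unusedSectionVars false
set_option linter.style.haveILetI false

namespace Cfsg.Agent.Lib.Chev

open Cfsg Cfsg.Lie Matrix BNPair Cfsg.Agent.Lib.BN
open Good2 (NN)
open Good3 (QJ Shape Shape_mul Shape_diag_mul)

variable {D : ChevalleyDatum} {F : Type*} [Field F]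

namespace Good3

variable (G : Good3 D)

/-- The root character with prescribed values at the fundamental roots. -/
noncomputable def chiU (G : Good3 D) (b : ℕ → Fˣ) (r : ℕ) : Fˣ := ∏ k ∈ Finset.range D.rank, b k ^ G.rc r k

include G

theorem chiU_neg (b : ℕ → Fˣ) {r : ℕ} (hr : r < D.nroots) : G.chiU b (D.neg r) = (G.chiU b r)⁻¹ := by
  unfold chiU
  rw [← Finset.prod_inv_distrib]
  apply Finset.prod_congr rfl
  intro k hk
  rw [G.rc_neg hr (Finset.mem_range.1 hk), _root_.zpow_neg]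

theorem chiU_chain (b : ℕ → Fˣ) {r v : ℕ} {q : (ℕ × ℤ) × ℕ} (hq : q ∈ (D.chainEntry r v).zipIdx) :
    G.chiU b q.1.1 = (G.chiU b r) ^ (q.2 + 1) * G.chiU b v := by
  unfold chiU
  rw [← Finset.prod_pow, ← Finset.prod_mul_distrib]
  apply Finset.prod_congr rfl
  intro k hk
  rw [G.rc_chain (Finset.mem_range.1 hk) hq, _root_.zpow_add, mul_comm ((q.2 + 1 : ℕ) : ℤ), _root_.zpow_mul, zpow_natCast]

theorem chiU_root (b : ℕ → Fˣ) : D.IsRootCharacter (G.chiU b) := by
  refine ⟨fun r hr => G.chiU_neg b hr, ?_⟩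
  intro r s k _ _ h
  unfold ChevalleyDatum.chainRoot at h
  cases hl : D.chainEntry r s with
  | nil =>
    rw [hl] at h
    simp at h
  | cons e l =>
    rw [hl] at h
    simp only [Nat.sub_self, List.getElem?_cons_zero, Option.map_some, Option.some.injEq] at h
    have hq : ((e, 0) : (ℕ × ℤ) × ℕ) ∈ (D.chainEntry r s).zipIdx := by
      rw [hl]
      simp [List.zipIdx_cons]
    have := G.chiU_chain b hq
    simp only at this
    rw [h] at this
    rw [this]
    simp

theorem chiU_isChi (b : ℕ → Fˣ) : IsChi D (fun r => (G.chiU b r : F)) where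
  ne r _ := Units.ne_zero _
  neg r hr := by
    rw [G.chiU_neg b hr, ← Units.val_mul, inv_mul_cancel, Units.val_one]
  add r v _ _ q hq := by
    rw [G.chiU_chain b hq, Units.val_mul, Units.val_pow_eq_pow_val]

theorem chiU_simple (b : ℕ → Fˣ) (hrc : ∀ i, i < D.rank → G.rc (D.simple i) i = 1) {i : ℕ} (hi : i < D.rank) :
    G.chiU b (D.simple i) = b i := by
  unfold chiU
  rw [Finset.prod_eq_single i]
  · rw [hrc i hi, _root_.zpow_one]
  · intro k hk hne
    rw [G.rc_simple_ne hi (Finset.mem_range.1 hk) hne, _root_.zpow_zero]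
  · intro h
    exact absurd (Finset.mem_range.2 hi) h

theorem dgU_conj {χ : ℕ → F} (h : IsChi D χ) {r : ℕ} (hr : r < D.nroots) (t : F) :
    dgU h * G.xg hr t * (dgU h)⁻¹ = G.xg hr (χ r * t) := by
  rw [mul_inv_eq_iff_eq_mul]
  apply Units.ext
  exact G.toGood0.dgM_mul_x h hr t

theorem dgU_inv_conj {χ : ℕ → F} (h : IsChi D χ) {r : ℕ} (hr : r < D.nroots) (t : F) :
    (dgU h)⁻¹ * G.xg hr t * dgU h = G.xg hr ((χ r)⁻¹ * t) := by
  have h1 := G.dgU_conj h hr ((χ r)⁻¹ * t)
  rw [← mul_assoc, mul_inv_cancel₀ (h.ne r hr), one_mul] at h1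
  rw [← h1]
  group

/-- The diagonal automorphism of given values at the fundamental roots. -/
theorem exists_diag (hrc : ∀ i, i < D.rank → G.rc (D.simple i) i = 1) (b : ℕ → Fˣ) :
    ∃ d : ↥(D.group F) ≃* ↥(D.group F), D.IsDiagonalAut d ∧ ∀ (i : ℕ) (hi : i < D.rank) (t : F),
      d (G.toGood2.xR (G.simple_lt hi) t) = G.toGood2.xR (G.simple_lt hi) ((b i : F) * t) ∧
      d (G.toGood2.xR (G.neg_lt (G.simple_lt hi)) t) = G.toGood2.xR (G.neg_lt (G.simple_lt hi)) ((b i : F)⁻¹ * t) := by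
  have hχ := G.chiU_isChi b
  refine ⟨G.conjAut (dgU hχ)
    (fun r hr t => by rw [G.dgU_conj hχ hr t]; exact G.toGood2.xg_mem_grp _ _)
    (fun r hr t => by rw [G.dgU_inv_conj hχ hr t]; exact G.toGood2.xg_mem_grp _ _), ?_, ?_⟩
  · refine ⟨G.chiU b, G.chiU_root b, fun g => ?_⟩
    have e : D.charDiag F (fun r => (G.chiU b r)⁻¹) = dgM D (fun s => ((G.chiU b s : F))⁻¹) := by
      unfold ChevalleyDatum.charDiag dgM
      simp
    rw [e]
    rfl
  · intro i hi t
    have e1 := G.chiU_simple b hrc hi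
    have e2 := G.chiU_neg b (G.simple_lt hi)
    rw [e1] at e2
    constructor
    · apply Subtype.ext
      show dgU hχ * G.xg (G.simple_lt hi) t * (dgU hχ)⁻¹ = G.xg (G.simple_lt hi) _
      rw [G.dgU_conj hχ]
      simp only [e1]
    · apply Subtype.ext
      show dgU hχ * G.xg (G.neg_lt (G.simple_lt hi)) t * (dgU hχ)⁻¹ = G.xg (G.neg_lt (G.simple_lt hi)) _
      rw [G.dgU_conj hχ]
      simp only [e2, Units.val_inv_eq_inv_val]

end Good3

end Cfsg.Agent.Lib.Chev
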