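import Cfsg.Agent.Lib.Chev.Aut.Main

/-! The combinatorics of the node automorphisms. -/

set_option autoImplicit false
set_option linter.unusedSimpArgs false
set_option linter.unusedVariables false
set_option linter.unusedSectionVars false
set_option linter.style.haveILetI false

namespace Cfsg.Agent.Lib.Chev

open Cfsg Cfsg.Lie

variable {F : Type*} [Field F]

theorem ringChar_of_two_eq_zero (h : (2 : F) = 0) : ringChar F = 2 := by
  have h1 : ringChar F ∣ 2 := (ringChar.spec F 2).1 (by exact_mod_cast h)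
  rcases (Nat.dvd_prime Nat.prime_two).1 h1 with h2 | h2
  · exact absurd h2 (CharP.ringChar_ne_one)
  · exact h2

/-- A field automorphism which is the squaring map: characteristic two. -/
theorem char_of_pow_two (τ : F ≃+* F) (h : ∀ t, τ t = t ^ 2) : ringChar F = 2 := by
  apply ringChar_of_two_eq_zero
  have h1 := h (1 + 1)
  rw [map_add, map_one] at h1
  linear_combination (-1 : F) * h1

/-- A field automorphism which is the cubing map. -/
theorem pow_three_eq (τ : F ≃+* F) (h : ∀ t, τ t = t ^ 3) (t : F) : t ^ 3 = t ^ ringChar F := by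
  have h1 := h (1 + 1)
  rw [map_add, map_one] at h1
  have h6 : ((6 : ℕ) : F) = 0 := by
    push_cast
    linear_combination -h1
  have h2 : ringChar F ∣ 6 := (ringChar.spec F 6).1 h6
  have hp : (ringChar F).Prime := by
    rcases CharP.char_is_prime_or_zero F (ringChar F) with h3 | h3
    · exact h3
    · rw [h3] at h2
      omega
  have h3 : ringChar F ∣ 2 * 3 := h2
  rcases (Nat.Prime.dvd_mul hp).1 h3 with h4 | h4
  · have h5 : ringChar F = 2 := (Nat.prime_dvd_prime_iff_eq hp Nat.prime_two).1 h4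
    have h7 : (2 : F) = 0 := by
      have := (ringChar.spec F 2).2 (by rw [h5])
      exact_mod_cast this
    rw [h5]
    have h8 := h (1 + t)
    rw [map_add, map_one, h t] at h8
    have h9 : t ^ 2 = t := by
      have h10 : t ^ 2 - t = 0 := by
        linear_combination (-1 : F) * h8 - (t ^ 2 + 2 * t) * h7
      exact sub_eq_zero.mp h10
    calc t ^ 3 = t ^ 2 * t := by ring
      _ = t * t := by rw [h9]
      _ = t ^ 2 := by ring
  · have h5 : ringChar F = 3 := (Nat.prime_dvd_prime_iff_eq hp Nat.prime_three).1 h4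
    rw [h5]

variable {D : ChevalleyDatum}

/-- The relation along an edge. -/
theorem edge_pow {ρ : Equiv.Perm (Fin D.rank)} {σ : Fin D.rank → (F ≃+* F)} (hR : NodeRel D ρ σ) {i j : Fin D.rank} {m : ℕ}
    (hm : m ≠ 0)
    (h1 : D.cartan (ρ i) (D.simple (ρ j)) = -1) (h2 : D.cartan i (D.simple j) = -(m : ℤ)) (t : F) :
    σ i t = (σ j t) ^ m := by
  by_cases ht : t = 0
  · subst ht
    simp [hm]
  · have h3 := hR i j t ht
    rw [h1, h2, _root_.zpow_neg, _root_.zpow_neg, _root_.zpow_one, zpow_natCast, _root_.inv_inj] at h3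
    exact h3

theorem edge_eq {ρ : Equiv.Perm (Fin D.rank)} {σ : Fin D.rank → (F ≃+* F)} (hR : NodeRel D ρ σ) {i j : Fin D.rank}
    (h1 : D.cartan (ρ i) (D.simple (ρ j)) = -1) (h2 : D.cartan i (D.simple j) = -1) : σ i = σ j := by
  ext t
  have := edge_pow hR (m := 1) one_ne_zero h1 (by simpa using h2) t
  simpa using this

/-- Connectedness: node automorphisms are all equal. -/
theorem walk_eq {ι : Type*} {P : ι → ι → Prop} {σ : ι → (F ≃+* F)} (he : ∀ a b, P a b → σ a = σ b)
    {walk : List ι} (hw : List.IsChain P walk) : ∀ x ∈ walk, ∀ y ∈ walk, σ x = σ y := by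
  have h1 : List.IsChain (fun a b => σ a = σ b) walk := hw.imp (fun a b h => he a b h)
  have h2 : List.Pairwise (fun a b => σ a = σ b) walk := by
    haveI : IsTrans ι (fun a b => σ a = σ b) := ⟨fun a b c h1 h2 => h1.trans h2⟩
    exact List.isChain_iff_pairwise.mp h1
  intro x hx y hy
  by_cases hxy : x = y
  · rw [hxy]
  · haveI : Std.Symm (fun a b => σ a = σ b) := ⟨fun a b h => h.symm⟩
    exact h2.forall hx hy hxy

/-- All node automorphisms agree. -/
theorem finish_const {ρ : Equiv.Perm (Fin D.rank)} {σ : Fin D.rank → (F ≃+* F)} (hR : NodeRel D ρ σ)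
    (hedge : ∀ a b : Fin D.rank, a ≠ b → D.cartan a (D.simple b) ≠ 0 →
      (D.cartan (ρ a) (D.simple (ρ b)) = -1 ∧ D.cartan a (D.simple b) = -1) ∨
      (D.cartan (ρ b) (D.simple (ρ a)) = -1 ∧ D.cartan b (D.simple a) = -1))
    {walk : List (Fin D.rank)} (hw : List.IsChain (fun a b : Fin D.rank => D.cartan a (D.simple b) ≠ 0) walk)
    (hc : ∀ i, i ∈ walk) (i₀ : Fin D.rank)
    (he : ∀ i : Fin D.rank, D.graphExp (ringChar F) i (ρ i) = 1) :
    ∃ σ₀ : F ≃+* F, ∀ (i : Fin D.rank) (t : F), σ i t = (σ₀ t) ^ D.graphExp (ringChar F) i (ρ i) := by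
  have h1 := walk_eq (σ := σ) (P := fun a b : Fin D.rank => D.cartan a (D.simple b) ≠ 0) (fun a b hab => by
    by_cases hne : a = b
    · rw [hne]
    · rcases hedge a b hne hab with ⟨h2, h3⟩ | ⟨h2, h3⟩
      · exact edge_eq hR h2 h3
      · exact (edge_eq hR h2 h3).symm) hw
  refine ⟨σ i₀, fun i t => ?_⟩
  rw [he i, pow_one, h1 i (hc i) i₀ (hc i₀)]

/-- The simply laced types. -/
theorem finish_sl {ρ : Equiv.Perm (Fin D.rank)} {σ : Fin D.rank → (F ≃+* F)} (hR : NodeRel D ρ σ) (hZ : ZeroPat D ρ)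
    (hA : ∀ i j : Fin D.rank, i ≠ j → D.cartan i (D.simple j) = 0 ∨ D.cartan i (D.simple j) = -1)
    (hL : ∀ i : Fin D.rank, D.isLong (D.simple i) = false)
    {walk : List (Fin D.rank)} (hw : List.IsChain (fun a b : Fin D.rank => D.cartan a (D.simple b) ≠ 0) walk)
    (hc : ∀ i, i ∈ walk) (i₀ : Fin D.rank) :
    D.IsDiagramSymmetry ρ ∧
      ∃ σ₀ : F ≃+* F, ∀ (i : Fin D.rank) (t : F), σ i t = (σ₀ t) ^ D.graphExp (ringChar F) i (ρ i) := by
  constructor
  · intro i j hij
    have hij' : ρ i ≠ ρ j := fun h => hij (ρ.injective h)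
    unfold ChevalleyDatum.bonds
    have z1 := hZ i j hij
    have z2 := hZ j i hij.symm
    rcases hA i j hij with a1 | a1 <;> rcases hA j i hij.symm with a2 | a2 <;>
      rcases hA (ρ i) (ρ j) hij' with a3 | a3 <;> rcases hA (ρ j) (ρ i) hij'.symm with a4 | a4 <;>
      simp only [a1, a2, a3, a4, mul_zero, zero_mul] <;>
      simp_all
  · apply finish_const hR _ hw hc i₀
    · intro i
      unfold ChevalleyDatum.graphExp
      rw [hL (ρ i)]
      simp
    · intro a b hab hne
      left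
      have h1 := (hA a b hab).resolve_left hne
      have h2 : D.cartan (ρ a) (D.simple (ρ b)) ≠ 0 := fun h => hne ((hZ a b hab).2 h)
      exact ⟨(hA (ρ a) (ρ b) (fun h => hab (ρ.injective h))).resolve_left h2, h1⟩

/-- The identity permutation. -/
theorem finish_id {σ : Fin D.rank → (F ≃+* F)} (hR : NodeRel D 1 σ)
    (hA : ∀ a b : Fin D.rank, a ≠ b → D.cartan a (D.simple b) ≠ 0 →
      D.cartan a (D.simple b) = -1 ∨ D.cartan b (D.simple a) = -1)
    {walk : List (Fin D.rank)} (hw : List.IsChain (fun a b : Fin D.rank => D.cartan a (D.simple b) ≠ 0) walk)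
    (hc : ∀ i, i ∈ walk) (i₀ : Fin D.rank) :
    ∃ σ₀ : F ≃+* F, ∀ (i : Fin D.rank) (t : F), σ i t = (σ₀ t) ^ D.graphExp (ringChar F) i ((1 : Equiv.Perm (Fin D.rank)) i) := by
  apply finish_const hR _ hw hc i₀
  · intro i
    unfold ChevalleyDatum.graphExp
    simp
  · intro a b hab hne
    rcases hA a b hab hne with h | h
    · exact Or.inl ⟨h, h⟩
    · exact Or.inr ⟨h, h⟩

/-- Two classes of nodes exchanged by the symmetry. -/
theorem finish_exch {ρ : Equiv.Perm (Fin D.rank)} {σ : Fin D.rank → (F ≃+* F)} {a b : Fin D.rank} {m : ℕ}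
    (hm : m = 2 ∨ m = 3) (hab : ∀ t, σ a t = (σ b t) ^ m)
    (hS : ∀ i : Fin D.rank, (σ i = σ a ∧ D.graphExp (ringChar F) i (ρ i) = ringChar F) ∨
      (σ i = σ b ∧ D.graphExp (ringChar F) i (ρ i) = 1)) :
    ∃ σ₀ : F ≃+* F, ∀ (i : Fin D.rank) (t : F), σ i t = (σ₀ t) ^ D.graphExp (ringChar F) i (ρ i) := by
  have hτ : ∀ u, ((σ b).symm.trans (σ a)) u = u ^ m := by
    intro u
    simp only [RingEquiv.trans_apply]
    rw [hab, RingEquiv.apply_symm_apply]
  have hc : ∀ u : F, u ^ m = u ^ ringChar F := by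
    intro u
    rcases hm with rfl | rfl
    · rw [char_of_pow_two _ hτ]
    · exact pow_three_eq _ hτ u
  refine ⟨σ b, fun i t => ?_⟩
  rcases hS i with ⟨h1, h2⟩ | ⟨h1, h2⟩
  · rw [h1, h2, hab, hc]
  · rw [h1, h2, pow_one]

end Cfsg.Agent.Lib.Chev
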