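import Mathlib

/-! Hua's identity: additive maps that are compatible with inversion are field automorphisms. -/

set_option autoImplicit false
set_option linter.unusedSimpArgs false
set_option linter.unusedVariables false
set_option linter.unusedSectionVars false

namespace Cfsg.Agent.Lib.Chev

theorem hua_aux {F : Type*} [Field F] {a b c : F} (ha : a ≠ 0) (hc : c ≠ 0) (e : (a + c) * b = 1) :
    a - (a⁻¹ + c⁻¹)⁻¹ = a ^ 2 * b := by
  have e1 : (a⁻¹ + c⁻¹) * (a * c * b) = 1 := by
    have e2 : (a⁻¹ + c⁻¹) * (a * c * b) = (a + c) * b := by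
      field_simp
      ring
    rw [e2, e]
  rw [inv_eq_of_mul_eq_one_right e1]
  linear_combination (-a) * e

theorem hua_id {F : Type*} [Field F] {a b : F} (ha : a ≠ 0) (hb : b ≠ 0) (h : b⁻¹ - a ≠ 0) :
    a - (a⁻¹ + (b⁻¹ - a)⁻¹)⁻¹ = a ^ 2 * b := by
  apply hua_aux ha h
  rw [add_sub_cancel, inv_mul_cancel₀ hb]

theorem hua_main {F : Type*} [Field F] [Finite F] (f g : F → F) (hf : ∀ a b, f (a + b) = f a + f b)
    (hg : ∀ a b, g (a + b) = g a + g b) (h1 : f 1 = 1) (hfg : ∀ a, a ≠ 0 → f a * g a⁻¹ = 1) :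
    ∃ σ : F ≃+* F, ∀ t, f t = σ t ∧ g t = σ t := by
  have f0 : f 0 = 0 := by
    have := hf 0 0
    rw [add_zero] at this
    exact left_eq_add.mp this
  have g0 : g 0 = 0 := by
    have := hg 0 0
    rw [add_zero] at this
    exact left_eq_add.mp this
  have fneg : ∀ a, f (-a) = - f a := by
    intro a
    have := hf a (-a)
    rw [add_neg_cancel, f0] at this
    exact (neg_eq_of_add_eq_zero_right this.symm).symm
  have fsub : ∀ a b, f (a - b) = f a - f b := by
    intro a b
    rw [sub_eq_add_neg, hf, fneg, sub_eq_add_neg]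
  have fne : ∀ a, a ≠ 0 → f a ≠ 0 := by
    intro a ha h
    have := hfg a ha
    rw [h, zero_mul] at this
    exact zero_ne_one this
  have gne : ∀ a, a ≠ 0 → g a ≠ 0 := by
    intro a ha h
    have := hfg a⁻¹ (inv_ne_zero ha)
    rw [inv_inv, h, mul_zero] at this
    exact zero_ne_one this
  have ginv : ∀ a, a ≠ 0 → g a⁻¹ = (f a)⁻¹ := fun a ha => eq_inv_of_mul_eq_one_right (hfg a ha)
  have finv : ∀ a, a ≠ 0 → f a⁻¹ = (g a)⁻¹ := fun a ha => by
    have := hfg a⁻¹ (inv_ne_zero ha)
    rw [inv_inv] at this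
    exact eq_inv_of_mul_eq_one_left this
  have key : ∀ a b, f (a ^ 2 * b) = f a ^ 2 * g b := by
    intro a b
    by_cases ha : a = 0
    · subst ha
      simp [f0]
    by_cases hb : b = 0
    · subst hb
      simp [f0, g0]
    by_cases hw : b⁻¹ - a = 0
    · have e : a = b⁻¹ := (sub_eq_zero.mp hw).symm
      have e2 : a ^ 2 * b = a := by
        rw [e]
        field_simp
      rw [e2]
      have e3 : g b = (f a)⁻¹ := by
        have := ginv a ha
        have e4 : a⁻¹ = b := by rw [e, inv_inv]
        rwa [e4] at this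
      rw [e3]
      have := fne a ha
      field_simp
    have hz : a⁻¹ + (b⁻¹ - a)⁻¹ ≠ 0 := by
      intro e
      have e1 := hua_id ha hb hw
      rw [e, inv_zero, sub_zero] at e1
      have e2 : (b⁻¹ - a) * b = 0 := by
        have e3 : b⁻¹ * b = 1 := inv_mul_cancel₀ hb
        have e4 : a * ((b⁻¹ - a) * b) = 0 := by
          linear_combination e1 + a * e3
        exact (mul_eq_zero.mp e4).resolve_left ha
      exact (mul_eq_zero.mp e2).elim hw hb
    have hα := fne a ha
    have hβ := gne b hb
    have hfw : f (b⁻¹ - a) = (g b)⁻¹ - f a := by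
      rw [fsub, finv b hb]
    have hfw' : (g b)⁻¹ - f a ≠ 0 := by
      rw [← hfw]
      exact fne _ hw
    rw [← hua_id ha hb hw, fsub, finv _ hz, hg, ginv a ha, ginv _ hw, hfw, hua_id hα hβ hfw']
  have hfg' : ∀ b, f b = g b := by
    intro b
    have := key 1 b
    rwa [one_pow, one_mul, h1, one_pow, one_mul] at this
  have key2 : ∀ a b, f (a ^ 2 * b) = f a ^ 2 * f b := by
    intro a b
    rw [key, ← hfg' b]
  have hsq : ∀ a, f (a ^ 2) = f a ^ 2 := by
    intro a
    have := key2 a 1
    rwa [mul_one, h1, mul_one] at this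
  have hmul : ∀ a b, f (a * b) = f a * f b := by
    by_cases h2 : (2 : F) = 0
    · -- squares are surjective in characteristic two
      have hinj : Function.Injective (fun x : F => x ^ 2) := by
        intro x y hxy
        have e : (x - y) ^ 2 = 0 := by
          have e1 : (x - y) ^ 2 = x ^ 2 - y ^ 2 - 2 * (x * y) + 2 * y ^ 2 := by ring
          simp only at hxy
          rw [e1, hxy, h2]
          simp
        exact sub_eq_zero.mp ((pow_eq_zero_iff (two_ne_zero)).mp e)
      have hsur := Finite.injective_iff_surjective.mp hinj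
      intro c b
      obtain ⟨a, rfl⟩ := hsur c
      simp only
      rw [key2, hsq]
    · intro a b
      have e1 := key2 (a + 1) b
      have e2 : (a + 1) ^ 2 * b = a ^ 2 * b + (a * b + (a * b + b)) := by ring
      rw [e2, hf, hf, hf, hf a 1, h1, key2] at e1
      have e3 : (2 : F) * f (a * b) = 2 * (f a * f b) := by
        linear_combination e1
      exact mul_left_cancel₀ h2 e3
  let σ₀ : F →+* F :=
    { toFun := f, map_one' := h1, map_mul' := hmul, map_zero' := f0, map_add' := hf }
  have hbij : Function.Bijective σ₀ :=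
    (Finite.injective_iff_bijective).mp σ₀.injective
  refine ⟨RingEquiv.ofBijective σ₀ hbij, fun t => ?_⟩
  have e : (RingEquiv.ofBijective σ₀ hbij) t = f t := rfl
  rw [e]
  exact ⟨rfl, (hfg' t).symm⟩

end Cfsg.Agent.Lib.Chev
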