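import Cfsg.Agent.Lib.Chev.Aut.Rel
import Cfsg.Agent.Lib.Chev.FieldAut

/-! Steinberg's theorem on automorphisms of Chevalley groups over finite fields. -/

set_option autoImplicit false
set_option linter.unusedSimpArgs false
set_option linter.unusedVariables false
set_option linter.unusedSectionVars false
set_option linter.style.haveILetI false

namespace Cfsg.Agent.Lib.Chev

open Cfsg Cfsg.Lie Matrix BNPair Cfsg.Agent.Lib.BN
open Good2 (NN)
open Good3 (QJ Shape Shape_mul Shape_diag_mul)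

variable {D : ChevalleyDatum} {F : Type*} [Field F]

namespace Good5

variable (G : Good5 D)
include G

/-- An automorphism is inner times diagonal times a map of fundamental root elements given by node automorphisms. -/
theorem aut_form [Finite F] (hrc : ∀ i, i < D.rank → G.rc (D.simple i) i = 1) (θ : ↥(D.group F) ≃* ↥(D.group F)) :
    ∃ (x : ↥(D.group F)) (d θ₂ : ↥(D.group F) ≃* ↥(D.group F)) (ρ : Equiv.Perm (Fin D.rank)) (σ : Fin D.rank → (F ≃+* F)),
      D.IsDiagonalAut d ∧ (∀ y, θ y = x * d (θ₂ y) * x⁻¹) ∧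
      ∀ (i : Fin D.rank) (t : F), θ₂ (G.toGood2.xR (G.simple_lt i.isLt) t) = G.toGood2.xR (G.simple_lt (ρ i).isLt) (σ i t) ∧
        θ₂ (G.toGood2.xR (G.neg_lt (G.simple_lt i.isLt)) t) = G.toGood2.xR (G.neg_lt (G.simple_lt (ρ i).isLt)) (σ i t) := by
  obtain ⟨x, θ₁, hx, hU, hV⟩ := G.toGood4.toGood3.normalize θ
  obtain ⟨ρ, hρ⟩ := G.root_perm θ₁ hU hV
  have nf := fun i : Fin D.rank => G.node_form i.isLt (ρ i).isLt (hρ i).1 (hρ i).2
  choose c σ hc hf using nf
  let b : ℕ → Fˣ := fun k => if hk : k < D.rank then Units.mk0 (c (ρ.symm ⟨k, hk⟩)) (hc _) else 1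
  have hb : ∀ i : Fin D.rank, (b (ρ i).val : F) = c i := by
    intro i
    simp [b, (ρ i).isLt]
  obtain ⟨d, hd, hdv⟩ := G.toGood4.toGood3.exists_diag hrc b
  refine ⟨x, d, θ₁.trans d.symm, ρ, σ, hd, ?_, ?_⟩
  · intro y
    simp [hx]
  · intro i t
    obtain ⟨h1, h2⟩ := hf i t
    obtain ⟨h3, h4⟩ := hdv (ρ i).val (ρ i).isLt (σ i t)
    rw [hb i] at h3 h4
    constructor
    · simp only [MulEquiv.trans_apply]
      rw [MulEquiv.symm_apply_eq]
      rw [h3]
      exact h1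
    · simp only [MulEquiv.trans_apply]
      rw [MulEquiv.symm_apply_eq]
      rw [h4]
      exact h2

/-- The main theorem, given the combinatorial facts about the diagram. -/
theorem aut_main [Finite F] (hrc : ∀ i, i < D.rank → G.rc (D.simple i) i = 1)
    (hT1 : ∀ i j, i < D.rank → j < D.rank → i ≠ j → D.cartan i (D.simple j) = 0 →
      G.W j (D.simple i) = D.simple i ∧ G.S j (D.simple i) = 1)
    (hfin : ∀ (ρ : Equiv.Perm (Fin D.rank)) (σ : Fin D.rank → (F ≃+* F)), NodeRel D ρ σ → ZeroPat D ρ →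
      D.IsDiagramSymmetry ρ ∧ ∃ σ₀ : F ≃+* F, ∀ (i : Fin D.rank) (t : F), σ i t = (σ₀ t) ^ D.graphExp (ringChar F) i (ρ i))
    (θ : ↥(D.group F) ≃* ↥(D.group F)) :
    ∃ (x : ↥(D.group F)) (d g f : ↥(D.group F) ≃* ↥(D.group F)),
      D.IsDiagonalAut d ∧ D.IsGraphAut g ∧ D.IsFieldAut f ∧ ∀ y : ↥(D.group F), θ y = x * d (g (f y)) * x⁻¹ := by
  obtain ⟨x, d, θ₂, ρ, σ, hd, hθ, hθ₂⟩ := G.aut_form hrc θ
  obtain ⟨h1, h2⟩ := G.node_rels hT1 hθ₂
  obtain ⟨hsym, σ₀, hσ₀⟩ := hfin ρ σ h1 h2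
  obtain ⟨f, hf⟩ := field_aut (D := D) σ₀
  have hfx : ∀ (r : ℕ) (hr : r < D.nroots) (u : F), f (G.toGood2.xR hr u) = G.toGood2.xR hr (σ₀ u) := by
    intro r hr u
    apply Subtype.ext
    apply Units.ext
    exact hf (G.toGood2.xR hr u) r u hr rfl
  have hfs : ∀ (r : ℕ) (hr : r < D.nroots) (u : F), f.symm (G.toGood2.xR hr u) = G.toGood2.xR hr (σ₀.symm u) := by
    intro r hr u
    rw [MulEquiv.symm_apply_eq, hfx, RingEquiv.apply_symm_apply]
  refine ⟨x, d, f.symm.trans θ₂, f, hd, ⟨ρ, hsym, ?_⟩, ⟨σ₀, hf⟩, ?_⟩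
  · intro y i t
    constructor
    · intro hy
      have e : y = G.toGood2.xR (G.simple_lt i.isLt) t := Subtype.ext (Units.ext hy)
      subst e
      simp only [MulEquiv.trans_apply]
      rw [hfs, (hθ₂ i _).1, hσ₀, RingEquiv.apply_symm_apply]
      rfl
    · intro hy
      have e : y = G.toGood2.xR (G.neg_lt (G.simple_lt i.isLt)) t := Subtype.ext (Units.ext hy)
      subst e
      simp only [MulEquiv.trans_apply]
      rw [hfs, (hθ₂ i _).2, hσ₀, RingEquiv.apply_symm_apply]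
      rfl
  · intro y
    simp [hθ]

end Good5

end Cfsg.Agent.Lib.Chev
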