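import Cfsg.Agent.Lib.Chev.Stein2
import Cfsg.Agent.Lib.Chev.Levi
import Cfsg.Agent.Lib.Chev.Sub.High

/-! The Chevalley involution and the root subgroups inside minimal parabolic subgroups. -/

set_option autoImplicit false
set_option linter.unusedSimpArgs false
set_option linter.unusedVariables false
set_option linter.unusedSectionVars false

namespace Cfsg.Agent.Lib.Chev

open Cfsg Cfsg.Lie Matrix BNPair Cfsg.Agent.Lib.BN
open Good2 (NN)
open Good3 (QJ Shape Shape_mul Shape_diag_mul)

variable {D : ChevalleyDatum} {F : Type*} [Field F]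

namespace Good3

variable (G : Good3 D)
include G

/-- A positive root in the rank one subsystem is the fundamental root. -/
theorem sub_single {i : ℕ} (hi : i < D.rank) : ∀ r, D.InRootSub {i} r → NN D ≤ r → r = D.simple i := by
  intro r
  induction r using Nat.strong_induction_on with
  | _ r ih =>
    intro hr hN
    rcases G.reduce' hr.1 hN with ⟨k, hk, e⟩ | ⟨k, hk, h1, h2, h3⟩
    · subst e
      have hki : k = i := by
        by_contra hne
        have h4 := hr.2 k hk hne
        have h5 := G.toGood2.cor_simple hk hk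
        simp only [if_true] at h5
        rw [show (D.coroot.getD (D.simple k) #[]).getD k 0 = cor D (D.simple k) k from rfl, h5] at h4
        omega
      rw [hki]
    · have hki : k = i := by
        by_contra hne
        exact h3 (hr.2 k hk hne)
      subst hki
      have h4 := G.W_sub hi (Set.mem_singleton k) hr
      have h5 := ih _ h2 h4 h1
      have h6 : G.W k (G.W k r) = r := G.W_W hi hr.1
      rw [h5, G.toGood2.W_simple hi] at h6
      have h7 := (G.toGood2.neg_pos (G.toGood2.simple_lt hi)).mp (G.toGood2.simple_pos hi)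
      omega

theorem QJ_or_simple {i : ℕ} (hi : i < D.rank) {r : ℕ} (hr : D.IsPosRoot r) :
    QJ D {i} r ∨ r = D.simple i := by
  by_cases h : D.InRootSub {i} r
  · exact Or.inr (G.sub_single hi r h ((G.toGood2.pos_iff hr.1).mp hr))
  · exact Or.inl ⟨hr, h⟩

theorem simple_isPos {i : ℕ} (hi : i < D.rank) : D.IsPosRoot (D.simple i) :=
  (G.toGood2.pos_iff (G.toGood2.simple_lt hi)).mpr (G.toGood2.simple_pos hi)

/-- The decomposition of `U`. -/
theorem U_decomp {i : ℕ} (hi : i < D.rank) {u : GL D.Idx F} (hu : u ∈ D.posUnipotent F) :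
    ∃ q ∈ rG D F (QJ D {i}), ∃ t : F, u = q * G.xg (G.toGood2.simple_lt hi) t := by
  have hlt := G.toGood2.simple_lt hi
  refine G.rG_induction (P := D.IsPosRoot) (fun r h => h.1)
    (Q := fun u => ∃ q ∈ rG D F (QJ D {i}), ∃ t : F, u = q * G.xg hlt t) ?_ ?_ ?_ u hu
  · exact ⟨1, Subgroup.one_mem _, 0, by rw [G.xg_zero, one_mul]⟩
  · rintro a b ⟨q, hq, t, rfl⟩ ⟨q', hq', t', rfl⟩
    refine ⟨q * (G.xg hlt t * q' * G.xg hlt (-t)), Subgroup.mul_mem _ hq ?_, t + t', ?_⟩
    · have := G.x_conj_UJ (J := {i}) (Or.inl (G.simple_isPos hi)) hlt (-t) hq'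
      rwa [neg_neg] at this
    · rw [← G.xg_mul hlt t t']
      have : G.xg hlt (-t) * G.xg hlt t = (1 : GL D.Idx F) := by
        rw [G.xg_mul, neg_add_cancel, G.xg_zero]
      calc q * G.xg hlt t * (q' * G.xg hlt t') = q * (G.xg hlt t * q' * (G.xg hlt (-t) * G.xg hlt t)) * G.xg hlt t' := by
            rw [this]; group
        _ = _ := by group
  · intro r hr t hp
    rcases G.QJ_or_simple hi hp with h | h
    · exact ⟨G.xg hr t, G.xg_mem hr h t, 0, by rw [G.xg_zero, mul_one]⟩
    · subst h
      exact ⟨1, Subgroup.one_mem _, t, by rw [one_mul]⟩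

/-- Root elements of negative degree lower the degree. -/
theorem x_lower {J : Set ℕ} {r : ℕ} (hr : QJ D J r) (t : F) :
    ∀ c row, row ≠ c → (D.x F (D.neg r) t) row c ≠ 0 → G.gd J row < G.gd J c := by
  have hlt := hr.1.1
  have hlt' := G.neg_lt hlt
  have hpos := G.deg_pos hr
  have hneg : G.deg J (D.neg r) < 0 := by
    rw [G.deg_neg J hlt]
    omega
  have hnn : D.neg (D.neg r) = r := G.neg_neg hlt
  apply G.x_shape (G.gd J) (R := (· > ·)) hlt' t
  · intro i
    exact hneg
  · intro i
    show G.deg J (D.neg (D.neg r)) > 0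
    rw [hnn]
    exact hpos
  · show G.deg J (D.neg (D.neg r)) > G.deg J (D.neg r)
    rw [hnn]
    omega
  · intro v u q hq e
    obtain ⟨i, hi⟩ := mem_chain_zipIdx hq
    have h1 := G.deg_chain J hlt' v.isLt hi
    simp only at h1
    show G.deg J v > G.deg J u
    rw [← e, h1]
    have : (0 : ℤ) < ((i + 1 : ℕ) : ℤ) := by positivity
    have h2 := mul_neg_of_pos_of_neg this hneg
    omega

/-- The subgroup of matrices of a given shape. -/
def shapeSub {α : Type*} (φ : D.Idx → α) (R : α → α → Prop) (htr : ∀ a b c, R a b → R b c → R a c) :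
    Subgroup (GL D.Idx F) where
  carrier := {g | Shape φ R (g : Matrix D.Idx D.Idx F) ∧ Shape φ R ((g⁻¹ : GL D.Idx F) : Matrix D.Idx D.Idx F)}
  mul_mem' := by
    rintro a b ⟨h1, h2⟩ ⟨h3, h4⟩
    constructor
    · simp only [Units.val_mul]
      exact Shape_mul htr h1 h3
    · rw [_root_.mul_inv_rev]
      simp only [Units.val_mul]
      exact Shape_mul htr h4 h2
  one_mem' := by
    have : Shape φ R ((1 : GL D.Idx F) : Matrix D.Idx D.Idx F) := by
      intro c row h h2
      simp [Matrix.one_apply, h] at h2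
    exact ⟨this, by simpa using this⟩
  inv_mem' := by
    rintro a ⟨h1, h2⟩
    exact ⟨h2, by simpa using h1⟩

/-- The elements of `P_J` are block triangular. -/
theorem parabolic_shape (J : Set ℕ) {g : GL D.Idx F} (hg : g ∈ D.parabolicSubgroup F J) :
    Shape (G.gd J) (· ≤ ·) (g : Matrix D.Idx D.Idx F) := by
  have hgen : ∀ (r : ℕ) (t : F), (D.IsPosRoot r ∨ D.InRootSub J r) →
      Shape (G.gd J) (· ≤ ·) (D.x F r t) := by
    intro r t h
    by_cases hs : D.InRootSub J r
    · intro c row hne h2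
      exact le_of_eq (G.x_pres hs t c row hne h2)
    · have hq : QJ D J r := ⟨h.resolve_right hs, hs⟩
      intro c row hne h2
      exact le_of_lt (G.x_raise hq t c row hne h2)
  have hK : D.parabolicSubgroup F J ≤ shapeSub (G.gd J) (· ≤ ·) (fun _ _ _ h1 h2 => le_trans h1 h2) := by
    rw [G.parabolic_eq]
    apply sup_le
    · intro k hk
      obtain ⟨χ, _, e⟩ := G.toGood2.H_form hk
      obtain ⟨χ', _, e'⟩ := G.toGood2.H_form (Subgroup.inv_mem _ hk)
      constructor
      · intro c row h h2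
        rw [e] at h2
        simp [dgM, Matrix.diagonal_apply, h] at h2
      · intro c row h h2
        rw [e'] at h2
        simp [dgM, Matrix.diagonal_apply, h] at h2
    · apply (Subgroup.closure_le _).mpr
      rintro k ⟨r, t, hr, e⟩
      have hlt : r < D.nroots := hr.elim (fun h => h.1) (fun h => h.1)
      have e1 := G.gen_eq hlt e
      constructor
      · rw [e]
        exact hgen r t hr
      · rw [e1, G.xg_inv]
        exact hgen r (-t) hr
  exact (hK hg).1

end Good3

namespace Good5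

variable (G : Good5 D)
include G

theorem aU_inv_conj {r : ℕ} (hr : r < D.nroots) (t : F) :
    (G.aU F)⁻¹ * G.xg hr t * G.aU F = G.xg (G.neg_lt hr) (-t) := by
  have h := G.aU_conj (G.neg_lt hr) (-t)
  have e : G.xg (G.neg_lt (G.neg_lt hr)) (- -t) = G.xg hr t := by
    apply Units.ext
    simp only [Good0.xg_val, neg_neg]
    rw [G.neg_neg hr]
  rw [e] at h
  rw [← h]
  group

theorem simple_neg_isNeg {i : ℕ} (hi : i < D.rank) : D.IsNegRoot (D.neg (D.simple i)) :=
  (G.toGood2.neg_iff (G.neg_lt (G.simple_lt hi))).mpr ((G.toGood2.neg_pos (G.simple_lt hi)).mp (G.toGood2.simple_pos hi))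

/-- `V ∩ P_i = X_{-p_i}`. -/
theorem neg_inf_parabolic {i : ℕ} (hi : i < D.rank) {g : GL D.Idx F} (hg : g ∈ D.negUnipotent F)
    (hP : g ∈ D.parabolicSubgroup F {i}) :
    ∃ t : F, g = G.xg (G.neg_lt (G.simple_lt hi)) t := by
  have hlt := G.simple_lt hi
  have hu : (G.aU F)⁻¹ * g * G.aU F ∈ D.posUnipotent F := by
    refine G.rG_induction (P := D.IsNegRoot) (fun r h => h.1)
      (Q := fun g => (G.aU F)⁻¹ * g * G.aU F ∈ D.posUnipotent F) ?_ ?_ ?_ g hg
    · simp only [mul_one, inv_mul_cancel]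
      exact Subgroup.one_mem _
    · intro x y hx hy
      have := Subgroup.mul_mem _ hx hy
      convert this using 1
      group
    · intro r hr t hn
      rw [G.aU_inv_conj hr t]
      exact G.xg_mem _ ((G.toGood2.pos_iff (G.neg_lt hr)).mpr
        (by have := (G.toGood2.neg_iff hr).mp hn
            rw [G.neg_eq hr]
            have := G.toGood2.NN_add
            omega)) _
  obtain ⟨q, hq, t, e⟩ := G.toGood4.toGood3.U_decomp hi hu
  have hS : Shape (G.toGood4.toGood3.gd {i}) (· > ·) ((G.aU F * q * (G.aU F)⁻¹ : GL D.Idx F) : Matrix D.Idx D.Idx F) ∧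
      ∀ c, ((G.aU F * q * (G.aU F)⁻¹ : GL D.Idx F) : Matrix D.Idx D.Idx F) c c = 1 := by
    refine G.rG_induction (P := QJ D {i}) (fun r h => h.1.1)
      (Q := fun q => Shape (G.toGood4.toGood3.gd {i}) (· > ·) ((G.aU F * q * (G.aU F)⁻¹ : GL D.Idx F) : Matrix D.Idx D.Idx F) ∧
      ∀ c, ((G.aU F * q * (G.aU F)⁻¹ : GL D.Idx F) : Matrix D.Idx D.Idx F) c c = 1) ?_ ?_ ?_ q hq
    · simp only [mul_one, mul_inv_cancel]
      refine ⟨?_, fun c => by simp⟩
      intro c row h h2
      simp [Matrix.one_apply, h] at h2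
    · intro x y hx hy
      have e1 : G.aU F * (x * y) * (G.aU F)⁻¹ = (G.aU F * x * (G.aU F)⁻¹) * (G.aU F * y * (G.aU F)⁻¹) := by
        group
      rw [e1]
      simp only [Units.val_mul] at hx hy ⊢
      refine ⟨Shape_mul (R := (· > ·)) (fun _ _ _ h1 h2 => gt_trans h1 h2) hx.1 hy.1, fun c => ?_⟩
      rw [Shape_diag_mul (R := (· > ·)) (fun a b h1 h2 => lt_asymm h1 h2) hx.1 hy.1, hx.2, hy.2, one_mul]
    · intro r hr t hq'
      rw [G.aU_conj hr t]
      refine ⟨G.toGood4.toGood3.x_lower hq' (-t), fun c => ?_⟩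
      have hn : D.neg r < NN D := (G.toGood2.neg_pos hr).mp ((G.toGood2.pos_iff hr).mp hq'.1)
      exact (G.toGood2.x_UTri_neg (G.neg_lt hr) hn (-t)).2 c
  -- the two factors
  have e1 : g = (G.aU F * q * (G.aU F)⁻¹) * G.xg (G.neg_lt hlt) (-t) := by
    rw [← G.aU_conj hlt t]
    calc g = G.aU F * ((G.aU F)⁻¹ * g * G.aU F) * (G.aU F)⁻¹ := by group
      _ = _ := by rw [e]; group
  have hx : G.xg (G.neg_lt hlt) (-t) ∈ D.parabolicSubgroup F {i} :=
    G.toGood4.toGood3.sub_mem {i} (G.toGood4.toGood3.neg_sub (G.toGood4.toGood3.simple_sub hi (Set.mem_singleton i))) _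
  have hM : G.aU F * q * (G.aU F)⁻¹ ∈ D.parabolicSubgroup F {i} := by
    have : G.aU F * q * (G.aU F)⁻¹ = g * (G.xg (G.neg_lt hlt) (-t))⁻¹ := by
      rw [e1]; group
    rw [this]
    exact Subgroup.mul_mem _ hP (Subgroup.inv_mem _ hx)
  have hle := G.toGood4.toGood3.parabolic_shape {i} hM
  have hone : G.aU F * q * (G.aU F)⁻¹ = 1 := by
    apply Units.ext
    ext row c
    by_cases h : row = c
    · subst h
      rw [hS.2]
      simp
    · rw [Units.val_one, Matrix.one_apply_ne h]
      by_contra hne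
      have h3 := hS.1 c row h hne
      have h4 := hle c row h hne
      exact absurd h4 (not_le_of_gt h3)
  exact ⟨-t, by rw [e1, hone, one_mul]⟩

/-- The root elements of the negative of a fundamental root lie in the minimal parabolic subgroup. -/
theorem neg_mem_parabolic {i : ℕ} (hi : i < D.rank) (t : F) :
    G.xg (G.neg_lt (G.simple_lt hi)) t ∈ D.parabolicSubgroup F {i} :=
  G.toGood4.toGood3.sub_mem {i} (G.toGood4.toGood3.neg_sub (G.toGood4.toGood3.simple_sub hi (Set.mem_singleton i))) _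

end Good5

end Cfsg.Agent.Lib.Chev
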