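import Cfsg.Agent.Lib.Chev.Aut.Atom
import Cfsg.Agent.Lib.Chev.Aut.Hua

/-! The rank one computation: the form of an automorphism on the root subgroups of a node. -/

set_option autoImplicit false
set_option linter.unusedSimpArgs false
set_option linter.unusedVariables false
set_option linter.unusedSectionVars false
set_option linter.style.haveILetI false

namespace Cfsg.Agent.Lib.Chev

open Cfsg Cfsg.Lie Matrix BNPair Cfsg.Agent.Lib.BN
open Good2 (NN)
open Good3 (QJ Shape Shape_mul Shape_diag_mul)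

variable {D : ChevalleyDatum} {F : Type*} [Field F]

namespace Good2

variable (G : Good2 D)
include G

theorem cor_neg_simple {i k : ℕ} (hi : i < D.rank) (hk : k < D.rank) :
    cor D (D.neg (D.simple i)) k = if k = i then -1 else 0 := by
  have h1 := G.p4' hi (G.simple_lt hi) hk
  rw [G.W_simple hi, G.cor_simple hi hk] at h1
  rw [h1]
  by_cases h : k = i
  · subst h
    have h2 := G.pairing_simple hi (D.simple k)
    rw [G.cartan_self hi] at h2
    rw [pairing_eq] at h2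
    have h3 : ((List.range D.rank).map fun j => cor D (D.simple k) j * D.cartan j (D.simple k)).sum = 2 := h2
    simp only [if_true]
    rw [h3]
    norm_num
  · simp [h]

theorem hV_neg_simple {i : ℕ} (hi : i < D.rank) : hV D F (D.neg (D.simple i)) = - vE D F i := by
  funext j
  rcases j with j | s
  · rw [hV_inl, G.cor_neg_simple hi j.isLt]
    simp only [Pi.neg_apply, vE_inl]
    by_cases h : j.val = i
    · simp [h]
    · simp [h]
  · rw [hV_inr]
    simp only [Pi.neg_apply, vE_inr]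
    rw [if_neg (by omega)]
    simp

/-- The rank one computation. -/
theorem rank_one_val {i : ℕ} (hi : i < D.rank) {A B s c : F} (hc : c ≠ 0)
    (h : (G.xg (G.simple_lt hi) A * G.xg (G.neg_lt (G.simple_lt hi)) B * G.xg (G.simple_lt hi) A) * G.xg (G.simple_lt hi) s *
      (G.xg (G.simple_lt hi) A * G.xg (G.neg_lt (G.simple_lt hi)) B * G.xg (G.simple_lt hi) A)⁻¹ = G.xg (G.neg_lt (G.simple_lt hi)) c) :
    A * B = -1 := by
  have hlt := G.simple_lt hi
  have hnlt := G.neg_lt hlt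
  have hnn := G.neg_neg hlt
  set g : GL D.Idx F := G.xg hlt A * G.xg hnlt B * G.xg hlt A with hg
  have e1 : G.xg hnlt c * g = g * G.xg hlt s := by
    rw [← h]
    group
  have e2 : D.x F (D.neg (D.simple i)) c * (g : Matrix D.Idx D.Idx F) = (g : Matrix D.Idx D.Idx F) * D.x F (D.simple i) s :=
    congrArg Units.val e1
  have hgm : (g : Matrix D.Idx D.Idx F) = D.x F (D.simple i) A * D.x F (D.neg (D.simple i)) B * D.x F (D.simple i) A := rfl
  set ep : D.Idx → F := vE D F (D.rank + D.simple i) with hep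
  have hself : ∀ t : F, D.x F (D.simple i) t *ᵥ ep = ep := fun t => x_vE_self D hlt t
  have hfix : D.x F (D.neg (D.simple i)) c *ᵥ ((g : Matrix D.Idx D.Idx F) *ᵥ ep) = (g : Matrix D.Idx D.Idx F) *ᵥ ep := by
    rw [Matrix.mulVec_mulVec, e2, ← Matrix.mulVec_mulVec, hself]
  have hv : (g : Matrix D.Idx D.Idx F) *ᵥ ep =
      ep + B • (- (vE D F i + (-((D.cartan i (D.simple i) : ℤ) : F) * A) • ep)) +
        (-(B ^ 2)) • (vE D F (D.rank + D.neg (D.simple i)) + A • hV D F (D.simple i) + (-(A ^ 2)) • ep) := by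
    rw [hgm, ← Matrix.mulVec_mulVec, ← Matrix.mulVec_mulVec, hself]
    have h1 := G.x_col_neg (F := F) hnlt B
    rw [hnn] at h1
    rw [h1, Matrix.mulVec_add, Matrix.mulVec_add, Matrix.mulVec_smul, Matrix.mulVec_smul, hself,
      G.hV_neg_simple hi, Matrix.mulVec_neg, x_vE_h D hlt A hi, G.x_col_neg hlt A]
  have hne : D.neg (D.simple i) ≠ D.simple i := G.neg_ne hlt
  have h1 := congrFun hfix (Sum.inl ⟨i, hi⟩)
  rw [G.x_row_h hnlt c ⟨i, hi⟩] at h1
  have h2 : (⟨D.neg (D.neg (D.simple i)), G.neg_lt hnlt⟩ : Fin D.nroots) = ⟨D.simple i, hlt⟩ := Fin.ext hnn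
  rw [h2, G.cor_neg_simple hi hi] at h1
  simp only [if_true] at h1
  have h3 : ((g : Matrix D.Idx D.Idx F) *ᵥ ep) (Sum.inr ⟨D.simple i, hlt⟩) = 0 := by
    have h4 : c * ((-1 : ℤ) : F) * ((g : Matrix D.Idx D.Idx F) *ᵥ ep) (Sum.inr ⟨D.simple i, hlt⟩) = 0 := by
      simpa using h1
    have h5 : c * ((-1 : ℤ) : F) ≠ 0 := by
      simpa using hc
    exact (mul_eq_zero.mp h4).resolve_left h5
  rw [hv] at h3
  simp only [Pi.add_apply, Pi.smul_apply, Pi.neg_apply, smul_eq_mul, hep, vE_inr, vE_inl, hV_inr] at h3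
  have h6 : ¬ (D.rank + D.simple i = i) := by omega
  have h7 : ¬ (D.rank + D.simple i = D.rank + D.neg (D.simple i)) := by omega
  simp only [if_true, if_neg h6, if_neg h7, G.cartan_self hi] at h3
  have h8 : (1 + A * B) ^ 2 = 0 := by
    push_cast at h3
    linear_combination h3
  have h9 := pow_eq_zero_iff (two_ne_zero) |>.mp h8
  linear_combination h9

/-- `n_p(a)` conjugates `x_p` into `X_{-p}`. -/
theorem nr_conj_exists {i : ℕ} (hi : i < D.rank) {a : F} (ha : a ≠ 0) :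
    ∃ d : F, (G.xg (G.simple_lt hi) a * G.xg (G.neg_lt (G.simple_lt hi)) (-a⁻¹) * G.xg (G.simple_lt hi) a) * G.xg (G.simple_lt hi) 1 *
      (G.xg (G.simple_lt hi) a * G.xg (G.neg_lt (G.simple_lt hi)) (-a⁻¹) * G.xg (G.simple_lt hi) a)⁻¹ = G.xg (G.neg_lt (G.simple_lt hi)) d := by
  have hlt := G.simple_lt hi
  have e1 : G.xg hlt a * G.xg (G.neg_lt hlt) (-a⁻¹) * G.xg hlt a = G.hG hlt ha * G.nG ⟨i, hi⟩ := by
    rw [G.nG_eq, ← G.nrU_eq_hG]
    apply Units.ext
    show _ = D.nMat F (D.simple i) a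
    rw [G.nMat_eq]
    rfl
  rw [e1]
  obtain ⟨χ, _, _, hχ⟩ := G.H_conj (G.hG_mem hlt ha)
  have h2 := G.nG_conj_x (F := F) ⟨i, hi⟩ hlt 1
  have e2 : G.xg (G.W_lt hi hlt) (((G.S i (D.simple i) : ℤ) : F) * 1) = G.xg (G.neg_lt hlt) (((G.S i (D.simple i) : ℤ) : F) * 1) := by
    apply Units.ext
    simp only [Good0.xg_val]
    rw [G.W_simple hi]
  refine ⟨χ (D.neg (D.simple i)) * (((G.S i (D.simple i) : ℤ) : F) * 1), ?_⟩
  rw [← hχ, ← e2, ← h2]
  group

end Good2

namespace Good5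

variable (G : Good5 D)
include G

/-- The form of a bijective automorphism on the root groups of a node. -/
theorem node_form [Finite F] {θ : ↥(D.group F) ≃* ↥(D.group F)} {i a : ℕ} (hi : i < D.rank) (ha : a < D.rank)
    (h1 : Carries θ (D.rootSubgroup F (D.simple i)) (D.rootSubgroup F (D.simple a)))
    (h2 : Carries θ (D.rootSubgroup F (D.neg (D.simple i))) (D.rootSubgroup F (D.neg (D.simple a)))) :
    ∃ (c : F) (σ : F ≃+* F), c ≠ 0 ∧ ∀ t : F, θ (G.xR (G.simple_lt hi) t) = G.xR (G.simple_lt ha) (c * σ t) ∧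
      θ (G.xR (G.neg_lt (G.simple_lt hi)) t) = G.xR (G.neg_lt (G.simple_lt ha)) (c⁻¹ * σ t) := by
  have hli := G.simple_lt hi
  have hla := G.simple_lt ha
  have hni := G.neg_lt hli
  have hna := G.neg_lt hla
  have ex1 : ∀ t : F, ∃ u : F, θ (G.xR hli t) = G.xR hla u := by
    intro t
    obtain ⟨u, hu⟩ := G.toGood2.X_form hla ((h1 (G.xR hli t)).1 (G.x_mem_X hli t))
    exact ⟨u, Subtype.ext hu⟩
  have ex2 : ∀ t : F, ∃ u : F, θ (G.xR hni t) = G.xR hna u := by
    intro t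
    obtain ⟨u, hu⟩ := G.toGood2.X_form hna ((h2 (G.xR hni t)).1 (G.x_mem_X hni t))
    exact ⟨u, Subtype.ext hu⟩
  choose φ hφ using ex1
  choose ψ hψ using ex2
  have φadd : ∀ s t, φ (s + t) = φ s + φ t := by
    intro s t
    apply G.toGood2.xR_inj hla
    rw [← hφ, ← G.toGood2.xR_mul, ← G.toGood2.xR_mul, map_mul, hφ, hφ]
  have ψadd : ∀ s t, ψ (s + t) = ψ s + ψ t := by
    intro s t
    apply G.toGood2.xR_inj hna
    rw [← hψ, ← G.toGood2.xR_mul, ← G.toGood2.xR_mul, map_mul, hψ, hψ]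
  have ψ0 : ψ 0 = 0 := by
    have := ψadd 0 0
    rw [add_zero] at this
    exact left_eq_add.mp this
  have ψneg : ∀ s, ψ (-s) = - ψ s := by
    intro s
    have := ψadd s (-s)
    rw [add_neg_cancel, ψ0] at this
    exact (neg_eq_of_add_eq_zero_right this.symm).symm
  have ψne : ∀ s, s ≠ 0 → ψ s ≠ 0 := by
    intro s hs h0
    have h3 := hψ s
    rw [h0, G.toGood2.xR_zero] at h3
    have h4 : G.xR hni s = 1 := θ.injective (by rw [h3, map_one])
    exact hs (G.toGood2.xg_eq_one hni (congrArg Subtype.val h4))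
  have φne : ∀ s, s ≠ 0 → φ s ≠ 0 := by
    intro s hs h0
    have h3 := hφ s
    rw [h0, G.toGood2.xR_zero] at h3
    have h4 : G.xR hli s = 1 := θ.injective (by rw [h3, map_one])
    exact hs (G.toGood2.xg_eq_one hli (congrArg Subtype.val h4))
  -- the relation
  have rel : ∀ s : F, s ≠ 0 → φ s * ψ s⁻¹ = 1 := by
    intro s hs
    obtain ⟨d, hd⟩ := G.toGood2.nr_conj_exists hi hs
    have hd0 : d ≠ 0 := by
      rintro rfl
      rw [G.xg_zero] at hd
      have h3 : G.xg hli (1 : F) = 1 := by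
        have := congrArg (fun x => (G.xg hli s * G.xg hni (-s⁻¹) * G.xg hli s)⁻¹ * x * (G.xg hli s * G.xg hni (-s⁻¹) * G.xg hli s)) hd
        simpa [mul_assoc] using this
      exact one_ne_zero (G.toGood2.xg_eq_one hli h3)
    have hd' : (G.xR hli s * G.xR hni (-s⁻¹) * G.xR hli s) * G.xR hli 1 * (G.xR hli s * G.xR hni (-s⁻¹) * G.xR hli s)⁻¹ = G.xR hni d :=
      Subtype.ext hd
    have h3 := congrArg θ hd'
    rw [map_mul, map_mul, map_inv, map_mul, map_mul, hφ, hφ, hψ, hψ] at h3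
    have h4 := G.toGood2.rank_one_val ha (A := φ s) (B := ψ (-s⁻¹)) (s := φ 1) (c := ψ d) (ψne d hd0) (congrArg Subtype.val h3)
    rw [ψneg] at h4
    linear_combination -h4
  have hc : φ 1 ≠ 0 := φne 1 one_ne_zero
  have hψ1 : ψ 1 = (φ 1)⁻¹ := by
    have := rel 1 one_ne_zero
    rw [inv_one] at this
    exact eq_inv_of_mul_eq_one_right this
  obtain ⟨σ, hσ⟩ := hua_main (fun t => (φ 1)⁻¹ * φ t) (fun t => φ 1 * ψ t)
    (fun s t => by simp only [φadd, mul_add]) (fun s t => by simp only [ψadd, mul_add])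
    (inv_mul_cancel₀ hc)
    (fun s hs => by
      have := rel s hs
      have h5 : (φ 1)⁻¹ * φ s * (φ 1 * ψ s⁻¹) = ((φ 1)⁻¹ * φ 1) * (φ s * ψ s⁻¹) := by ring
      rw [h5, inv_mul_cancel₀ hc, this, one_mul])
  refine ⟨φ 1, σ, hc, fun t => ⟨?_, ?_⟩⟩
  · rw [hφ, ← (hσ t).1]
    rw [mul_inv_cancel_left₀ hc]
  · rw [hψ, ← (hσ t).2]
    rw [inv_mul_cancel_left₀ hc]

end Good5

end Cfsg.Agent.Lib.Chev
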