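import Cfsg.Agent.Lib.Chev.Aut.OutGen
import Cfsg.Agent.Lib.Chev.Aut.TE6
import Cfsg.Agent.Lib.Chev.Tab.E6g

/-! The outer automorphism group of type E6. -/

set_option autoImplicit false
set_option linter.style.haveILetI false
set_option maxRecDepth 100000
set_option synthInstance.maxHeartbeats 0
set_option synthInstance.maxSize 100000

namespace Cfsg.Agent.Lib.Chev.TabE6

open Cfsg Cfsg.Lie

theorem aut_rigid : 
  ∀ a5 : Fin chevE6.rank,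
  ∀ a4 : Fin chevE6.rank,
  ((a4 ≠ a5 ∧ (chevE6.cartan (⟨4, by decide⟩ : Fin chevE6.rank) (chevE6.simple (⟨5, by decide⟩ : Fin chevE6.rank)) = 0 ↔ chevE6.cartan a4 (chevE6.simple a5) = 0))) →
  ∀ a3 : Fin chevE6.rank,
  ((a3 ≠ a5 ∧ (chevE6.cartan (⟨3, by decide⟩ : Fin chevE6.rank) (chevE6.simple (⟨5, by decide⟩ : Fin chevE6.rank)) = 0 ↔ chevE6.cartan a3 (chevE6.simple a5) = 0)) ∧ (a3 ≠ a4 ∧ (chevE6.cartan (⟨3, by decide⟩ : Fin chevE6.rank) (chevE6.simple (⟨4, by decide⟩ : Fin chevE6.rank)) = 0 ↔ chevE6.cartan a3 (chevE6.simple a4) = 0))) →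
  ∀ a2 : Fin chevE6.rank,
  ((a2 ≠ a5 ∧ (chevE6.cartan (⟨2, by decide⟩ : Fin chevE6.rank) (chevE6.simple (⟨5, by decide⟩ : Fin chevE6.rank)) = 0 ↔ chevE6.cartan a2 (chevE6.simple a5) = 0)) ∧ (a2 ≠ a4 ∧ (chevE6.cartan (⟨2, by decide⟩ : Fin chevE6.rank) (chevE6.simple (⟨4, by decide⟩ : Fin chevE6.rank)) = 0 ↔ chevE6.cartan a2 (chevE6.simple a4) = 0)) ∧ (a2 ≠ a3 ∧ (chevE6.cartan (⟨2, by decide⟩ : Fin chevE6.rank) (chevE6.simple (⟨3, by decide⟩ : Fin chevE6.rank)) = 0 ↔ chevE6.cartan a2 (chevE6.simple a3) = 0))) →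
  ∀ a1 : Fin chevE6.rank,
  ((a1 ≠ a5 ∧ (chevE6.cartan (⟨1, by decide⟩ : Fin chevE6.rank) (chevE6.simple (⟨5, by decide⟩ : Fin chevE6.rank)) = 0 ↔ chevE6.cartan a1 (chevE6.simple a5) = 0)) ∧ (a1 ≠ a4 ∧ (chevE6.cartan (⟨1, by decide⟩ : Fin chevE6.rank) (chevE6.simple (⟨4, by decide⟩ : Fin chevE6.rank)) = 0 ↔ chevE6.cartan a1 (chevE6.simple a4) = 0)) ∧ (a1 ≠ a3 ∧ (chevE6.cartan (⟨1, by decide⟩ : Fin chevE6.rank) (chevE6.simple (⟨3, by decide⟩ : Fin chevE6.rank)) = 0 ↔ chevE6.cartan a1 (chevE6.simple a3) = 0)) ∧ (a1 ≠ a2 ∧ (chevE6.cartan (⟨1, by decide⟩ : Fin chevE6.rank) (chevE6.simple (⟨2, by decide⟩ : Fin chevE6.rank)) = 0 ↔ chevE6.cartan a1 (chevE6.simple a2) = 0))) →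
  ∀ a0 : Fin chevE6.rank,
  ((a0 ≠ a5 ∧ (chevE6.cartan (⟨0, by decide⟩ : Fin chevE6.rank) (chevE6.simple (⟨5, by decide⟩ : Fin chevE6.rank)) = 0 ↔ chevE6.cartan a0 (chevE6.simple a5) = 0)) ∧ (a0 ≠ a4 ∧ (chevE6.cartan (⟨0, by decide⟩ : Fin chevE6.rank) (chevE6.simple (⟨4, by decide⟩ : Fin chevE6.rank)) = 0 ↔ chevE6.cartan a0 (chevE6.simple a4) = 0)) ∧ (a0 ≠ a3 ∧ (chevE6.cartan (⟨0, by decide⟩ : Fin chevE6.rank) (chevE6.simple (⟨3, by decide⟩ : Fin chevE6.rank)) = 0 ↔ chevE6.cartan a0 (chevE6.simple a3) = 0)) ∧ (a0 ≠ a2 ∧ (chevE6.cartan (⟨0, by decide⟩ : Fin chevE6.rank) (chevE6.simple (⟨2, by decide⟩ : Fin chevE6.rank)) = 0 ↔ chevE6.cartan a0 (chevE6.simple a2) = 0)) ∧ (a0 ≠ a1 ∧ (chevE6.cartan (⟨0, by decide⟩ : Fin chevE6.rank) (chevE6.simple (⟨1, by decide⟩ : Fin chevE6.rank)) = 0 ↔ chevE6.cartan a0 (chevE6.simple a1) = 0))) →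
  (a5.val = 5 ∧ a4.val = 4 ∧ a3.val = 3 ∧ a2.val = 2 ∧ a1.val = 1 ∧ a0.val = 0) ∨ (a5.val = 0 ∧ a4.val = 2 ∧ a3.val = 3 ∧ a2.val = 4 ∧ a1.val = 1 ∧ a0.val = 5) := by decide +kernel

theorem aut_rigid_apply (ρ : Equiv.Perm (Fin chevE6.rank)) (hZ : ZeroPat chevE6 ρ) :
    ((ρ ⟨5, by decide⟩).val = 5 ∧ (ρ ⟨4, by decide⟩).val = 4 ∧ (ρ ⟨3, by decide⟩).val = 3 ∧ (ρ ⟨2, by decide⟩).val = 2 ∧ (ρ ⟨1, by decide⟩).val = 1 ∧ (ρ ⟨0, by decide⟩).val = 0) ∨ ((ρ ⟨5, by decide⟩).val = 0 ∧ (ρ ⟨4, by decide⟩).val = 2 ∧ (ρ ⟨3, by decide⟩).val = 3 ∧ (ρ ⟨2, by decide⟩).val = 4 ∧ (ρ ⟨1, by decide⟩).val = 1 ∧ (ρ ⟨0, by decide⟩).val = 5) := by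
  have c : ∀ i j : Fin chevE6.rank, i ≠ j → ρ i ≠ ρ j ∧ (chevE6.cartan i (chevE6.simple j) = 0 ↔ chevE6.cartan (ρ i) (chevE6.simple (ρ j)) = 0) :=
    fun i j h => ⟨fun e => h (ρ.injective e), hZ i j h⟩
  exact aut_rigid (ρ ⟨5, by decide⟩) (ρ ⟨4, by decide⟩) (c ⟨4, by decide⟩ ⟨5, by decide⟩ (by decide)) (ρ ⟨3, by decide⟩) ⟨c ⟨3, by decide⟩ ⟨5, by decide⟩ (by decide), c ⟨3, by decide⟩ ⟨4, by decide⟩ (by decide)⟩ (ρ ⟨2, by decide⟩) ⟨c ⟨2, by decide⟩ ⟨5, by decide⟩ (by decide), c ⟨2, by decide⟩ ⟨4, by decide⟩ (by decide), c ⟨2, by decide⟩ ⟨3, by decide⟩ (by decide)⟩ (ρ ⟨1, by decide⟩) ⟨c ⟨1, by decide⟩ ⟨5, by decide⟩ (by decide), c ⟨1, by decide⟩ ⟨4, by decide⟩ (by decide), c ⟨1, by decide⟩ ⟨3, by decide⟩ (by decide), c ⟨1, by decide⟩ ⟨2, by decide⟩ (by decide)⟩ (ρ ⟨0, by decide⟩) ⟨c ⟨0, by decide⟩ ⟨5, by decide⟩ (by decide), c ⟨0, by decide⟩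 ⟨4, by decide⟩ (by decide), c ⟨0, by decide⟩ ⟨3, by decide⟩ (by decide), c ⟨0, by decide⟩ ⟨2, by decide⟩ (by decide), c ⟨0, by decide⟩ ⟨1, by decide⟩ (by decide)⟩

theorem aut_fin_vals : ∀ i : Fin chevE6.rank, i.val = 0 ∨ i.val = 1 ∨ i.val = 2 ∨ i.val = 3 ∨ i.val = 4 ∨ i.val = 5 := by
  decide +kernel

theorem aut_flip_lt : ∀ i : Fin chevE6.rank, gRi.getD i.val 0 < chevE6.rank := by decide +kernel

theorem aut_flip_inv : ∀ i : Fin chevE6.rank, gRi.getD (gRi.getD i.val 0) 0 = i.val := by decide +kernel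

/-- The symmetry of the diagram. -/
def aut_flip : Equiv.Perm (Fin chevE6.rank) where
  toFun i := ⟨gRi.getD i.val 0, aut_flip_lt i⟩
  invFun i := ⟨gRi.getD i.val 0, aut_flip_lt i⟩
  left_inv i := Fin.ext (aut_flip_inv i)
  right_inv i := Fin.ext (aut_flip_inv i)

theorem aut_flip_val (i : Fin chevE6.rank) : (aut_flip i).val = gRi.getD i.val 0 := rfl

theorem aut_rigid_two (ρ : Equiv.Perm (Fin chevE6.rank)) (hZ : ZeroPat chevE6 ρ) : ρ = 1 ∨ ρ = aut_flip := by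
  rcases aut_rigid_apply ρ hZ with ⟨h5, h4, h3, h2, h1, h0⟩ | ⟨h5, h4, h3, h2, h1, h0⟩
  · left
    apply Equiv.ext
    rintro ⟨i, hi⟩
    apply Fin.ext
    rcases aut_fin_vals ⟨i, hi⟩ with e | e | e | e | e | e <;> simp only at e <;> subst e
    · exact h0
    · exact h1
    · exact h2
    · exact h3
    · exact h4
    · exact h5
  · right
    apply Equiv.ext
    rintro ⟨i, hi⟩
    apply Fin.ext
    rcases aut_fin_vals ⟨i, hi⟩ with e | e | e | e | e | e <;> simp only at e <;> subst e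
    · exact h0
    · exact h1
    · exact h2
    · exact h3
    · exact h4
    · exact h5

theorem aut_flip_ne : aut_flip ≠ 1 := by
  intro h
  have h1 := congrArg (fun ρ : Equiv.Perm (Fin chevE6.rank) => (ρ ⟨0, by decide⟩).val) h
  simp only [aut_flip_val, Equiv.Perm.one_apply] at h1
  exact absurd h1 (by decide +kernel)

theorem aut_g1 : ∀ i : Fin chevE6.rank, graph.ρ (chevE6.simple i) = chevE6.simple (aut_flip i) := by decide +kernel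
theorem aut_g2 : ∀ i : Fin chevE6.rank, graph.ρ (chevE6.neg (chevE6.simple i)) = chevE6.neg (chevE6.simple (aut_flip i)) := by decide +kernel
theorem aut_g3 : ∀ i : Fin chevE6.rank, graph.ε (chevE6.simple i) = 1 := by decide +kernel
theorem aut_g4 : ∀ i : Fin chevE6.rank, graph.ε (chevE6.neg (chevE6.simple i)) = 1 := by decide +kernel
theorem aut_g5 : ∀ r, r < chevE6.nroots → chevE6.IsPosRoot r → chevE6.IsPosRoot (graph.ρ r) := by decide +kernel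
theorem aut_g6 : ∀ r, r < chevE6.nroots → chevE6.IsPosRoot r → chevE6.IsPosRoot (graph.ρ' r) := by decide +kernel
theorem aut_g7 : ∀ r, r < chevE6.nroots → chevE6.IsNegRoot r → chevE6.IsNegRoot (graph.ρ r) := by decide +kernel
theorem aut_g8 : ∀ r, r < chevE6.nroots → chevE6.IsNegRoot r → chevE6.IsNegRoot (graph.ρ' r) := by decide +kernel

theorem aut_flip_mem {F : Type*} [Field F] : aut_flip ∈ GP good5 F :=
  GraphData.mem_GP good5 graph aut_flip aut_g1 aut_g2 aut_g3 aut_g4 (fun i => aut_hL _)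
    (fun r h => aut_g5 r h.1 h) (fun r h => aut_g6 r h.1 h) (fun r h => aut_g7 r h.1 h) (fun r h => aut_g8 r h.1 h)

theorem aut_Hcard {F : Type*} [Field F] [Fintype F] {q : ℕ} (hq : Fintype.card F = q) :
    Nat.gcd 3 (q - 1) * Nat.card (chevE6.diagonalSubgroup F) = (q - 1) ^ chevE6.rank := by
  have h := good5.toGood2.H_card_of_smith (F := F) hq (matOf 6 [[-1, 0, 0, 0, 0, 0], [0, -1, 0, 0, 0, 0], [1, -2, 0, -1, 0, 0], [2, -3, 0, -2, -1, 0], [-2, 1, -1, 0, 0, 0], [-5, 0, -4, -3, -2, -1]])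
    (matOf 6 [[0, 0, 0, 0, 1, -2], [0, 0, 0, 0, 2, -3], [1, 0, 0, 0, 2, -4], [0, 1, 0, 0, 4, -6], [0, 0, 1, 0, 4, -5], [0, 0, 0, 1, 4, -4]])
    (matOf 6 [[-1, 0, 0, 0, 0, 0], [0, -1, 0, 0, 0, 0], [2, -1, 0, 0, -1, 0], [-1, 2, -1, 0, 0, 0], [0, -1, 2, -1, 0, 0], [0, 0, -1, 2, 4, -1]])
    (matOf 6 [[-2, 0, 1, 0, 0, 0], [0, -2, 0, 1, 0, 0], [2, -3, 0, 0, 1, 0], [4, -4, 0, 0, 0, 1], [-3, 2, 0, 0, 0, 0], [-2, 1, 0, 0, 0, 0]])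
    (dOfA 6 [1, 1, 1, 1, 1, 3]) (by decide +kernel) (by decide +kernel) (by decide +kernel) (by decide +kernel) (by decide +kernel)
  have h2 : (∏ i : Fin chevE6.rank, Nat.gcd (dOfA 6 [1, 1, 1, 1, 1, 3] i) (q - 1)) = Nat.gcd 3 (q - 1) := by
    show (∏ i : Fin 6, Nat.gcd (dOfA 6 [1, 1, 1, 1, 1, 3] i) (q - 1)) = Nat.gcd 3 (q - 1)
    simp [Fin.prod_univ_succ, dOfA, sq]
  rw [h2] at h
  exact h

end Cfsg.Agent.Lib.Chev.TabE6
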