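import Cfsg.Agent.Lib.Chev.Aut.OutGen
import Cfsg.Agent.Lib.Chev.Aut.TE7

/-! The outer automorphism group of type E7. -/

set_option autoImplicit false
set_option linter.style.haveILetI false
set_option maxRecDepth 100000
set_option synthInstance.maxHeartbeats 0
set_option synthInstance.maxSize 100000

namespace Cfsg.Agent.Lib.Chev.TabE7

open Cfsg Cfsg.Lie

theorem aut_rigid : 
  ∀ a6 : Fin chevE7.rank,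
  ∀ a5 : Fin chevE7.rank,
  ((a5 ≠ a6 ∧ (chevE7.cartan (⟨5, by decide⟩ : Fin chevE7.rank) (chevE7.simple (⟨6, by decide⟩ : Fin chevE7.rank)) = 0 ↔ chevE7.cartan a5 (chevE7.simple a6) = 0))) →
  ∀ a4 : Fin chevE7.rank,
  ((a4 ≠ a6 ∧ (chevE7.cartan (⟨4, by decide⟩ : Fin chevE7.rank) (chevE7.simple (⟨6, by decide⟩ : Fin chevE7.rank)) = 0 ↔ chevE7.cartan a4 (chevE7.simple a6) = 0)) ∧ (a4 ≠ a5 ∧ (chevE7.cartan (⟨4, by decide⟩ : Fin chevE7.rank) (chevE7.simple (⟨5, by decide⟩ : Fin chevE7.rank)) = 0 ↔ chevE7.cartan a4 (chevE7.simple a5) = 0))) →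
  ∀ a3 : Fin chevE7.rank,
  ((a3 ≠ a6 ∧ (chevE7.cartan (⟨3, by decide⟩ : Fin chevE7.rank) (chevE7.simple (⟨6, by decide⟩ : Fin chevE7.rank)) = 0 ↔ chevE7.cartan a3 (chevE7.simple a6) = 0)) ∧ (a3 ≠ a5 ∧ (chevE7.cartan (⟨3, by decide⟩ : Fin chevE7.rank) (chevE7.simple (⟨5, by decide⟩ : Fin chevE7.rank)) = 0 ↔ chevE7.cartan a3 (chevE7.simple a5) = 0)) ∧ (a3 ≠ a4 ∧ (chevE7.cartan (⟨3, by decide⟩ : Fin chevE7.rank) (chevE7.simple (⟨4, by decide⟩ : Fin chevE7.rank)) = 0 ↔ chevE7.cartan a3 (chevE7.simple a4) = 0))) →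
  ∀ a2 : Fin chevE7.rank,
  ((a2 ≠ a6 ∧ (chevE7.cartan (⟨2, by decide⟩ : Fin chevE7.rank) (chevE7.simple (⟨6, by decide⟩ : Fin chevE7.rank)) = 0 ↔ chevE7.cartan a2 (chevE7.simple a6) = 0)) ∧ (a2 ≠ a5 ∧ (chevE7.cartan (⟨2, by decide⟩ : Fin chevE7.rank) (chevE7.simple (⟨5, by decide⟩ : Fin chevE7.rank)) = 0 ↔ chevE7.cartan a2 (chevE7.simple a5) = 0)) ∧ (a2 ≠ a4 ∧ (chevE7.cartan (⟨2, by decide⟩ : Fin chevE7.rank) (chevE7.simple (⟨4, by decide⟩ : Fin chevE7.rank)) = 0 ↔ chevE7.cartan a2 (chevE7.simple a4) = 0)) ∧ (a2 ≠ a3 ∧ (chevE7.cartan (⟨2, by decide⟩ : Fin chevE7.rank) (chevE7.simple (⟨3, by decide⟩ : Fin chevE7.rank)) = 0 ↔ chevE7.cartan a2 (chevE7.simple a3) = 0))) →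
  ∀ a1 : Fin chevE7.rank,
  ((a1 ≠ a6 ∧ (chevE7.cartan (⟨1, by decide⟩ : Fin chevE7.rank) (chevE7.simple (⟨6, by decide⟩ : Fin chevE7.rank)) = 0 ↔ chevE7.cartan a1 (chevE7.simple a6) = 0)) ∧ (a1 ≠ a5 ∧ (chevE7.cartan (⟨1, by decide⟩ : Fin chevE7.rank) (chevE7.simple (⟨5, by decide⟩ : Fin chevE7.rank)) = 0 ↔ chevE7.cartan a1 (chevE7.simple a5) = 0)) ∧ (a1 ≠ a4 ∧ (chevE7.cartan (⟨1, by decide⟩ : Fin chevE7.rank) (chevE7.simple (⟨4, by decide⟩ : Fin chevE7.rank)) = 0 ↔ chevE7.cartan a1 (chevE7.simple a4) = 0)) ∧ (a1 ≠ a3 ∧ (chevE7.cartan (⟨1, by decide⟩ : Fin chevE7.rank) (chevE7.simple (⟨3, by decide⟩ : Fin chevE7.rank)) = 0 ↔ chevE7.cartan a1 (chevE7.simple a3) = 0)) ∧ (a1 ≠ a2 ∧ (chevE7.cartan (⟨1, by decide⟩ : Fin chevE7.rank) (chevE7.simple (⟨2, by decide⟩ : Fin chevE7.rank)) = 0 ↔ chevE7.cartan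 a1 (chevE7.simple a2) = 0))) →
  ∀ a0 : Fin chevE7.rank,
  ((a0 ≠ a6 ∧ (chevE7.cartan (⟨0, by decide⟩ : Fin chevE7.rank) (chevE7.simple (⟨6, by decide⟩ : Fin chevE7.rank)) = 0 ↔ chevE7.cartan a0 (chevE7.simple a6) = 0)) ∧ (a0 ≠ a5 ∧ (chevE7.cartan (⟨0, by decide⟩ : Fin chevE7.rank) (chevE7.simple (⟨5, by decide⟩ : Fin chevE7.rank)) = 0 ↔ chevE7.cartan a0 (chevE7.simple a5) = 0)) ∧ (a0 ≠ a4 ∧ (chevE7.cartan (⟨0, by decide⟩ : Fin chevE7.rank) (chevE7.simple (⟨4, by decide⟩ : Fin chevE7.rank)) = 0 ↔ chevE7.cartan a0 (chevE7.simple a4) = 0)) ∧ (a0 ≠ a3 ∧ (chevE7.cartan (⟨0, by decide⟩ : Fin chevE7.rank) (chevE7.simple (⟨3, by decide⟩ : Fin chevE7.rank)) = 0 ↔ chevE7.cartan a0 (chevE7.simple a3) = 0)) ∧ (a0 ≠ a2 ∧ (chevE7.cartan (⟨0, by decide⟩ : Fin chevE7.rank) (chevE7.simple (⟨2, by decide⟩ : Fin chevE7.rank))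 = 0 ↔ chevE7.cartan a0 (chevE7.simple a2) = 0)) ∧ (a0 ≠ a1 ∧ (chevE7.cartan (⟨0, by decide⟩ : Fin chevE7.rank) (chevE7.simple (⟨1, by decide⟩ : Fin chevE7.rank)) = 0 ↔ chevE7.cartan a0 (chevE7.simple a1) = 0))) →
  (a6.val = 6 ∧ a5.val = 5 ∧ a4.val = 4 ∧ a3.val = 3 ∧ a2.val = 2 ∧ a1.val = 1 ∧ a0.val = 0) := by decide +kernel

theorem aut_rigid_apply (ρ : Equiv.Perm (Fin chevE7.rank)) (hZ : ZeroPat chevE7 ρ) :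
    ((ρ ⟨6, by decide⟩).val = 6 ∧ (ρ ⟨5, by decide⟩).val = 5 ∧ (ρ ⟨4, by decide⟩).val = 4 ∧ (ρ ⟨3, by decide⟩).val = 3 ∧ (ρ ⟨2, by decide⟩).val = 2 ∧ (ρ ⟨1, by decide⟩).val = 1 ∧ (ρ ⟨0, by decide⟩).val = 0) := by
  have c : ∀ i j : Fin chevE7.rank, i ≠ j → ρ i ≠ ρ j ∧ (chevE7.cartan i (chevE7.simple j) = 0 ↔ chevE7.cartan (ρ i) (chevE7.simple (ρ j)) = 0) :=
    fun i j h => ⟨fun e => h (ρ.injective e), hZ i j h⟩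
  exact aut_rigid (ρ ⟨6, by decide⟩) (ρ ⟨5, by decide⟩) (c ⟨5, by decide⟩ ⟨6, by decide⟩ (by decide)) (ρ ⟨4, by decide⟩) ⟨c ⟨4, by decide⟩ ⟨6, by decide⟩ (by decide), c ⟨4, by decide⟩ ⟨5, by decide⟩ (by decide)⟩ (ρ ⟨3, by decide⟩) ⟨c ⟨3, by decide⟩ ⟨6, by decide⟩ (by decide), c ⟨3, by decide⟩ ⟨5, by decide⟩ (by decide), c ⟨3, by decide⟩ ⟨4, by decide⟩ (by decide)⟩ (ρ ⟨2, by decide⟩) ⟨c ⟨2, by decide⟩ ⟨6, by decide⟩ (by decide), c ⟨2, by decide⟩ ⟨5, by decide⟩ (by decide), c ⟨2, by decide⟩ ⟨4, by decide⟩ (by decide), c ⟨2, by decide⟩ ⟨3, by decide⟩ (by decide)⟩ (ρ ⟨1, by decide⟩) ⟨c ⟨1, by decide⟩ ⟨6, by decide⟩ (by decide), c ⟨1, by decide⟩ ⟨5, by decide⟩ (by decide), c ⟨1, by decide⟩ ⟨4, by decide⟩ (by decide), c ⟨1, by decide⟩ ⟨3, by decide⟩ (by decide), c ⟨1, by decide⟩ ⟨2, by decide⟩ (by decide)⟩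 (ρ ⟨0, by decide⟩) ⟨c ⟨0, by decide⟩ ⟨6, by decide⟩ (by decide), c ⟨0, by decide⟩ ⟨5, by decide⟩ (by decide), c ⟨0, by decide⟩ ⟨4, by decide⟩ (by decide), c ⟨0, by decide⟩ ⟨3, by decide⟩ (by decide), c ⟨0, by decide⟩ ⟨2, by decide⟩ (by decide), c ⟨0, by decide⟩ ⟨1, by decide⟩ (by decide)⟩

theorem aut_fin_vals : ∀ i : Fin chevE7.rank, i.val = 0 ∨ i.val = 1 ∨ i.val = 2 ∨ i.val = 3 ∨ i.val = 4 ∨ i.val = 5 ∨ i.val = 6 := by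
  decide +kernel

theorem aut_rigid_one (ρ : Equiv.Perm (Fin chevE7.rank)) (hZ : ZeroPat chevE7 ρ) : ρ = 1 := by
  obtain ⟨h6, h5, h4, h3, h2, h1, h0⟩ := aut_rigid_apply ρ hZ
  apply Equiv.ext
  rintro ⟨i, hi⟩
  apply Fin.ext
  rcases aut_fin_vals ⟨i, hi⟩ with e | e | e | e | e | e | e <;> simp only at e <;> subst e
  · exact h0
  · exact h1
  · exact h2
  · exact h3
  · exact h4
  · exact h5
  · exact h6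

theorem aut_Hcard {F : Type*} [Field F] [Fintype F] {q : ℕ} (hq : Fintype.card F = q) :
    Nat.gcd 2 (q - 1) * Nat.card (chevE7.diagonalSubgroup F) = (q - 1) ^ chevE7.rank := by
  have h := good5.toGood2.H_card_of_smith (F := F) hq (matOf 7 [[-1, 0, 0, 0, 0, 0, 0], [0, -1, 0, 0, 0, 0, 0], [1, -2, 0, -1, 0, 0, 0], [2, -3, 0, -2, -1, 0, 0], [3, -4, 0, -3, -2, -1, 0], [-2, 1, -1, 0, 0, 0, 0], [-4, -1, -4, -4, -3, -2, -1]])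
    (matOf 7 [[0, 0, 0, 0, 0, 1, -2], [0, 0, 0, 0, 0, 2, -3], [1, 0, 0, 0, 0, 2, -4], [0, 1, 0, 0, 0, 4, -6], [0, 0, 1, 0, 0, 4, -5], [0, 0, 0, 1, 0, 4, -4], [0, 0, 0, 0, 1, 4, -3]])
    (matOf 7 [[-1, 0, 0, 0, 0, 0, 0], [0, -1, 0, 0, 0, 0, 0], [2, -1, 0, 0, 0, -1, 0], [-1, 2, -1, 0, 0, 0, 0], [0, -1, 2, -1, 0, 0, 0], [0, 0, -1, 2, -1, 0, 0], [0, 0, 0, -1, 2, 4, -1]])
    (matOf 7 [[-2, 0, 1, 0, 0, 0, 0], [0, -2, 0, 1, 0, 0, 0], [2, -3, 0, 0, 1, 0, 0], [4, -4, 0, 0, 0, 1, 0], [6, -5, 0, 0, 0, 0, 1], [-3, 2, 0, 0, 0, 0, 0], [-2, 1, 0, 0, 0, 0, 0]])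
    (dOfA 7 [1, 1, 1, 1, 1, 1, 2]) (by decide +kernel) (by decide +kernel) (by decide +kernel) (by decide +kernel) (by decide +kernel)
  have h2 : (∏ i : Fin chevE7.rank, Nat.gcd (dOfA 7 [1, 1, 1, 1, 1, 1, 2] i) (q - 1)) = Nat.gcd 2 (q - 1) := by
    show (∏ i : Fin 7, Nat.gcd (dOfA 7 [1, 1, 1, 1, 1, 1, 2] i) (q - 1)) = Nat.gcd 2 (q - 1)
    simp [Fin.prod_univ_succ, dOfA, sq]
  rw [h2] at h
  exact h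

end Cfsg.Agent.Lib.Chev.TabE7
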