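import Cfsg.Agent.Lib.Chev.Aut.Finish
import Cfsg.Agent.Lib.Chev.Tab.F4e

/-! The diagram of type F₄. -/

set_option autoImplicit false
set_option linter.style.haveILetI false

namespace Cfsg.Agent.Lib.Chev.TabF4

open Cfsg Cfsg.Lie

theorem aut_hrc : ∀ i, i < chevF4.rank → good5.rc (chevF4.simple i) i = 1 := by decide +kernel

theorem aut_hT1' : ∀ i, i < chevF4.rank → ∀ j, j < chevF4.rank → i ≠ j → chevF4.cartan i (chevF4.simple j) = 0 →
      good5.W j (chevF4.simple i) = chevF4.simple i ∧ good5.S j (chevF4.simple i) = 1 := by decide +kernel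

theorem aut_perm : ∀ ρ : Equiv.Perm (Fin chevF4.rank), (∀ i j : Fin chevF4.rank, i ≠ j →
      (chevF4.cartan i (chevF4.simple j) = 0 ↔ chevF4.cartan (ρ i) (chevF4.simple (ρ j)) = 0)) →
    ρ = 1 ∨ (∀ i : Fin chevF4.rank, (ρ i).val = 3 - i.val) := by decide +kernel

theorem aut_sym : ∀ ρ : Equiv.Perm (Fin chevF4.rank), (∀ i j : Fin chevF4.rank, i ≠ j →
      (chevF4.cartan i (chevF4.simple j) = 0 ↔ chevF4.cartan (ρ i) (chevF4.simple (ρ j)) = 0)) →
    ∀ i j : Fin chevF4.rank, i ≠ j → chevF4.cartan (ρ i) (chevF4.simple (ρ j)) * chevF4.cartan (ρ j) (chevF4.simple (ρ i)) =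
      chevF4.cartan i (chevF4.simple j) * chevF4.cartan j (chevF4.simple i) := by decide +kernel

theorem aut_fin : ∀ i : Fin chevF4.rank, i = ⟨0, by decide⟩ ∨ i = ⟨1, by decide⟩ ∨ i = ⟨2, by decide⟩ ∨ i = ⟨3, by decide⟩ := by
  decide +kernel

theorem aut_long0 : chevF4.isLong (chevF4.simple 0) = false := by decide +kernel
theorem aut_long1 : chevF4.isLong (chevF4.simple 1) = false := by decide +kernel
theorem aut_long2 : chevF4.isLong (chevF4.simple 2) = true := by decide +kernel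
theorem aut_long3 : chevF4.isLong (chevF4.simple 3) = true := by decide +kernel

variable {F : Type*} [Field F]

theorem aut_hfin (ρ : Equiv.Perm (Fin chevF4.rank)) (σ : Fin chevF4.rank → (F ≃+* F))
    (hR : NodeRel chevF4 ρ σ) (hZ : ZeroPat chevF4 ρ) :
    chevF4.IsDiagramSymmetry ρ ∧ ∃ σ₀ : F ≃+* F, ∀ (i : Fin chevF4.rank) (t : F),
      σ i t = (σ₀ t) ^ chevF4.graphExp (ringChar F) i (ρ i) := by
  refine ⟨fun i j h => aut_sym ρ hZ i j h, ?_⟩
  rcases aut_perm ρ hZ with rfl | hrev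
  · exact finish_id hR (by decide +kernel) (walk := [⟨0, by decide⟩, ⟨1, by decide⟩, ⟨2, by decide⟩, ⟨3, by decide⟩]) (by decide +kernel) (by decide +kernel) ⟨0, by decide⟩
  · have r0 : ρ ⟨0, by decide⟩ = ⟨3, by decide⟩ := Fin.ext (hrev _)
    have r1 : ρ ⟨1, by decide⟩ = ⟨2, by decide⟩ := Fin.ext (hrev _)
    have r2 : ρ ⟨2, by decide⟩ = ⟨1, by decide⟩ := Fin.ext (hrev _)
    have r3 : ρ ⟨3, by decide⟩ = ⟨0, by decide⟩ := Fin.ext (hrev _)
    have hab := edge_pow hR (i := ⟨1, by decide⟩) (j := ⟨2, by decide⟩) (m := 2) (by decide)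
      (by rw [r1, r2]; decide +kernel) (by decide +kernel)
    have h01 : σ ⟨0, by decide⟩ = σ ⟨1, by decide⟩ := edge_eq hR (by rw [r0, r1]; decide +kernel) (by decide +kernel)
    have h32 : σ ⟨3, by decide⟩ = σ ⟨2, by decide⟩ := edge_eq hR (by rw [r3, r2]; decide +kernel) (by decide +kernel)
    apply finish_exch (a := ⟨1, by decide⟩) (b := ⟨2, by decide⟩) (m := 2) (Or.inl rfl) hab
    intro i
    rcases aut_fin i with rfl | rfl | rfl | rfl
    · left
      refine ⟨h01, ?_⟩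
      rw [r0]
      unfold ChevalleyDatum.graphExp
      simp only [aut_long0, aut_long3]
      rfl
    · left
      refine ⟨rfl, ?_⟩
      rw [r1]
      unfold ChevalleyDatum.graphExp
      simp only [aut_long1, aut_long2]
      rfl
    · right
      refine ⟨rfl, ?_⟩
      rw [r2]
      unfold ChevalleyDatum.graphExp
      simp only [aut_long1, aut_long2]
      rfl
    · right
      refine ⟨h32, ?_⟩
      rw [r3]
      unfold ChevalleyDatum.graphExp
      simp only [aut_long0, aut_long3]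
      rfl

theorem aut_result [Finite F] (θ : ↥(chevF4.group F) ≃* ↥(chevF4.group F)) :
    ∃ (x : ↥(chevF4.group F)) (d g f : ↥(chevF4.group F) ≃* ↥(chevF4.group F)),
      chevF4.IsDiagonalAut d ∧ chevF4.IsGraphAut g ∧ chevF4.IsFieldAut f ∧
        ∀ y : ↥(chevF4.group F), θ y = x * d (g (f y)) * x⁻¹ :=
  good5.aut_main aut_hrc (fun i j hi hj h => aut_hT1' i hi j hj h) aut_hfin θ

end Cfsg.Agent.Lib.Chev.TabF4
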