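import Cfsg.Agent.Lib.Chev.Aut.Finish
import Cfsg.Agent.Lib.Chev.Tab.G2e

/-! The diagram of type G₂. -/

set_option autoImplicit false
set_option linter.style.haveILetI false

namespace Cfsg.Agent.Lib.Chev.TabG2

open Cfsg Cfsg.Lie

theorem aut_hrc : ∀ i, i < chevG2.rank → good5.rc (chevG2.simple i) i = 1 := by decide +kernel

theorem aut_hT1' : ∀ i, i < chevG2.rank → ∀ j, j < chevG2.rank → i ≠ j → chevG2.cartan i (chevG2.simple j) = 0 →
      good5.W j (chevG2.simple i) = chevG2.simple i ∧ good5.S j (chevG2.simple i) = 1 := by decide +kernel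

theorem aut_perm : ∀ ρ : Equiv.Perm (Fin chevG2.rank), ρ = 1 ∨ (ρ ⟨0, by decide⟩ = ⟨1, by decide⟩ ∧ ρ ⟨1, by decide⟩ = ⟨0, by decide⟩) := by decide +kernel

theorem aut_sym : ∀ ρ : Equiv.Perm (Fin chevG2.rank), chevG2.IsDiagramSymmetry ρ := by
  unfold ChevalleyDatum.IsDiagramSymmetry ChevalleyDatum.bonds
  decide +kernel

theorem aut_fin : ∀ i : Fin chevG2.rank, i = ⟨0, by decide⟩ ∨ i = ⟨1, by decide⟩ := by decide +kernel

theorem aut_long0 : chevG2.isLong (chevG2.simple 0) = false := by decide +kernel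
theorem aut_long1 : chevG2.isLong (chevG2.simple 1) = true := by decide +kernel

variable {F : Type*} [Field F]

theorem aut_hfin (ρ : Equiv.Perm (Fin chevG2.rank)) (σ : Fin chevG2.rank → (F ≃+* F))
    (hR : NodeRel chevG2 ρ σ) (hZ : ZeroPat chevG2 ρ) :
    chevG2.IsDiagramSymmetry ρ ∧ ∃ σ₀ : F ≃+* F, ∀ (i : Fin chevG2.rank) (t : F),
      σ i t = (σ₀ t) ^ chevG2.graphExp (ringChar F) i (ρ i) := by
  refine ⟨aut_sym ρ, ?_⟩
  rcases aut_perm ρ with rfl | ⟨h0, h1⟩
  · exact finish_id hR (by decide +kernel) (walk := [⟨0, by decide⟩, ⟨1, by decide⟩]) (by decide +kernel) (by decide +kernel) ⟨0, by decide⟩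
  · have hab := edge_pow hR (i := ⟨0, by decide⟩) (j := ⟨1, by decide⟩) (m := 3) (by decide)
      (by rw [h0, h1]; decide +kernel) (by decide +kernel)
    apply finish_exch (a := ⟨0, by decide⟩) (b := ⟨1, by decide⟩) (m := 3) (Or.inr rfl) hab
    intro i
    rcases aut_fin i with rfl | rfl
    · left
      refine ⟨rfl, ?_⟩
      rw [h0]
      unfold ChevalleyDatum.graphExp
      simp only [aut_long0, aut_long1]
      rfl
    · right
      refine ⟨rfl, ?_⟩
      rw [h1]
      unfold ChevalleyDatum.graphExp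
      simp only [aut_long0, aut_long1]
      rfl

theorem aut_result [Finite F] (θ : ↥(chevG2.group F) ≃* ↥(chevG2.group F)) :
    ∃ (x : ↥(chevG2.group F)) (d g f : ↥(chevG2.group F) ≃* ↥(chevG2.group F)),
      chevG2.IsDiagonalAut d ∧ chevG2.IsGraphAut g ∧ chevG2.IsFieldAut f ∧
        ∀ y : ↥(chevG2.group F), θ y = x * d (g (f y)) * x⁻¹ :=
  good5.aut_main aut_hrc (fun i j hi hj h => aut_hT1' i hi j hj h) aut_hfin θ

end Cfsg.Agent.Lib.Chev.TabG2
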