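import Cfsg.Agent.Lib.Chev.Aut.OutGen
import Cfsg.Agent.Lib.Chev.Aut.TG2
import Cfsg.Agent.Lib.Chev.Aut.TF4
import Cfsg.Agent.Lib.Chev.Exc2

/-! The outer automorphism groups of types G₂ and F₄. -/

set_option autoImplicit false
set_option linter.unusedSimpArgs false
set_option linter.unusedVariables false
set_option linter.unusedSectionVars false
set_option linter.style.haveILetI false
set_option maxRecDepth 100000

namespace Cfsg.Agent.Lib.Chev

open Cfsg Cfsg.Lie Matrix BNPair Cfsg.Agent.Lib.BN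

variable {D : ChevalleyDatum} {F : Type*} [Field F]

/-- A finite field is perfect. -/
theorem pow_char_surj [Finite F] (p : ℕ) [Fact p.Prime] [CharP F p] (x : F) : ∃ y : F, y ^ p = x := by
  obtain ⟨y, hy⟩ := Finite.surjective_of_injective (frobenius F p).injective x
  exact ⟨y, by rw [← hy, frobenius_def]⟩

namespace Good2

variable (G : Good2 D)
include G

/-- A permutation of the root elements preserving positivity preserves `U` and `V`. -/
theorem pres_of_perm' {θ : ↥(D.group F) ≃* ↥(D.group F)} (π : ℕ → ℕ) (hπ : ∀ r, r < D.nroots → π r < D.nroots)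
    (a : ℕ → F → F)
    (h1 : ∀ (r : ℕ) (hr : r < D.nroots) (t : F), θ (G.xR hr t) = G.xR (hπ r hr) (a r t))
    (h2 : ∀ (r : ℕ) (hr : r < D.nroots) (t : F), ∃ v : F, θ.symm (G.xR hr t) = G.xR (hπ r hr) v)
    (hp : ∀ r, D.IsPosRoot r → D.IsPosRoot (π r)) (hn : ∀ r, D.IsNegRoot r → D.IsNegRoot (π r)) : Pres θ := by
  have hc : ∀ {P : ℕ → Prop} (hP : ∀ r, P r → r < D.nroots) (h3 : ∀ r, P r → P (π r)),
      Carries θ (rG D F P) (rG D F P) := by
    intro P hP h3 y
    constructor
    · intro hy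
      exact G.map_rG_le θ hP (fun r hr t hq => by
        rw [h1]
        exact G.xg_mem (hπ r hr) (h3 r hq) _) hy
    · intro hy
      have := G.map_rG_le θ.symm hP (fun r hr t hq => by
        obtain ⟨v, hv⟩ := h2 r hr t
        rw [hv]
        exact G.xg_mem (hπ r hr) (h3 r hq) _) hy
      simpa using this
  exact ⟨hc (fun _ h => h.1) hp, hc (fun _ h => h.1) hn⟩

end Good2

/-- An exceptional automorphism realises its symmetry. -/
theorem exc_mem_GP [Finite F] {p : ℕ} [Fact p.Prime] [CharP F p] (G : Good5 D) (E : ExcData D p)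
    (α : ↥(D.group F) ≃* ↥(D.group F))
    (hα : ∀ {r : ℕ} {t : F} {g : ↥(D.group F)}, r < D.nroots →
      ((g : GL D.Idx F) : Matrix D.Idx D.Idx F) = D.x F r t →
      ((α g : GL D.Idx F) : Matrix D.Idx D.Idx F) = D.x F (E.ρ r) (t ^ E.lam r))
    (ρ : Equiv.Perm (Fin D.rank)) (h1 : ∀ i : Fin D.rank, E.ρ (D.simple i) = D.simple (ρ i))
    (h3 : ∀ i : Fin D.rank, E.lam (D.simple i) = D.graphExp p i (ρ i))
    (hp : ∀ r, r < D.nroots → D.IsPosRoot r → D.IsPosRoot (E.ρ r))
    (hn : ∀ r, r < D.nroots → D.IsNegRoot r → D.IsNegRoot (E.ρ r)) : ρ ∈ GP G F := by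
  have hlt : ∀ r, r < D.nroots → E.ρ r < D.nroots := fun r hr => E.lt hr
  have key : ∀ (r : ℕ) (hr : r < D.nroots) (t : F), α (G.toGood2.xR hr t) = G.toGood2.xR (hlt r hr) (t ^ E.lam r) := by
    intro r hr t
    apply Subtype.ext
    apply Units.ext
    exact hα hr rfl
  have hs : ∀ (r : ℕ) (hr : r < D.nroots) (t : F), ∃ v : F, α.symm (G.toGood2.xR hr t) = G.toGood2.xR (hlt r hr) v := by
    intro r hr t
    obtain ⟨y, hy⟩ := exc_perf E (pow_char_surj p) (E.ρ r) (hlt r hr) t
    refine ⟨y, ?_⟩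
    rw [MulEquiv.symm_apply_eq, key, hy]
    apply Subtype.ext
    apply Units.ext
    show D.x F r t = D.x F (E.ρ (E.ρ r)) t
    rw [E.ρρ hr]
  have hc : ringChar F = p := ringChar.eq F p
  refine ⟨α, G.toGood2.pres_of_perm' E.ρ hlt (fun r t => t ^ E.lam r) key hs (fun r h => hp r h.1 h) (fun r h => hn r h.1 h), ?_⟩
  intro i t
  constructor
  · rw [key]
    apply Subtype.ext
    apply Units.ext
    show D.x F (E.ρ (D.simple i)) (t ^ E.lam (D.simple i)) = D.x F (D.simple (ρ i)) (t ^ D.graphExp (ringChar F) i (ρ i))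
    rw [h1, h3, hc]
  · rw [key]
    apply Subtype.ext
    apply Units.ext
    show D.x F (E.ρ (D.neg (D.simple i))) (t ^ E.lam (D.neg (D.simple i))) = D.x F (D.neg (D.simple (ρ i))) (t ^ D.graphExp (ringChar F) i (ρ i))
    rw [E.ρ_neg (G.simple_lt i.isLt), E.lam_neg (G.simple_lt i.isLt), h1, h3, hc]

theorem GP_card_one_of [Finite F] (G : Good5 D) (h : ∀ ρ, ρ ∈ GP G F → ρ = 1) : Nat.card (GP G F) = 1 := by
  have e : GP G F = {1} := by
    ext ρ
    constructor
    · exact fun hρ => h ρ hρ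
    · rintro rfl
      exact G.one_mem_GP
  rw [e]
  simp

/-- The Frobenius map is not the cubing map. -/
theorem no_frob_cube [Finite F] (p : ℕ) [hp : Fact p.Prime] [CharP F p] (h3 : p ≠ 3) (hq : 3 ≤ Nat.card F)
    (h : ∀ t : F, t ^ p = t ^ 3) : False := by
  classical
  haveI := Fintype.ofFinite F
  by_cases h2 : p = 2
  · subst h2
    have h1 : ∀ t : F, t = 0 ∨ t = 1 := by
      intro t
      by_cases ht : t = 0
      · exact Or.inl ht
      · right
        have := h t
        have h5 : t ^ 2 * (t - 1) = 0 := by linear_combination -this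
        rcases mul_eq_zero.mp h5 with h6 | h6
        · exact absurd (pow_eq_zero_iff (by norm_num) |>.mp h6) ht
        · exact sub_eq_zero.mp h6
    have h4 : (Finset.univ : Finset F) ⊆ {0, 1} := by
      intro t _
      rcases h1 t with rfl | rfl <;> simp
    have h5 := Finset.card_le_card h4
    rw [Finset.card_univ, ← Nat.card_eq_fintype_card] at h5
    have h6 : ({0, 1} : Finset F).card ≤ 2 := Finset.card_le_two
    omega
  · have h1 := h 2
    have h4 : (2 : F) ^ p = 2 := by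
      have := map_natCast (frobenius F p) 2
      rw [frobenius_def] at this
      exact_mod_cast this
    rw [h4] at h1
    have h5 : ((6 : ℕ) : F) = 0 := by
      push_cast
      linear_combination -h1
    have h6 : p ∣ 6 := (CharP.cast_eq_zero_iff F p 6).mp h5
    have h7 : p ∣ 2 * 3 := h6
    rcases (Nat.Prime.dvd_mul hp.out).mp h7 with h8 | h8
    · exact h2 ((Nat.prime_dvd_prime_iff_eq hp.out Nat.prime_two).mp h8)
    · exact h3 ((Nat.prime_dvd_prime_iff_eq hp.out Nat.prime_three).mp h8)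

/-- The Frobenius map is not the squaring map. -/
theorem no_frob_sq (p : ℕ) [hp : Fact p.Prime] [CharP F p] (h2 : p ≠ 2) (h : ∀ t : F, t ^ p = t ^ 2) : False := by
  have h1 := h (-1)
  have ho : Odd p := hp.out.odd_of_ne_two h2
  rw [ho.neg_one_pow] at h1
  have h5 : ((2 : ℕ) : F) = 0 := by
    push_cast
    linear_combination -h1
  have h6 : p ∣ 2 := (CharP.cast_eq_zero_iff F p 2).mp h5
  exact h2 ((Nat.prime_dvd_prime_iff_eq hp.out Nat.prime_two).mp h6)

end Cfsg.Agent.Lib.Chev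

namespace Cfsg.Agent.Lib.Chev.TabG2

open Cfsg Cfsg.Lie

theorem aut_Hcard {F : Type*} [Field F] [Fintype F] {q : ℕ} (hq : Fintype.card F = q) :
    1 * Nat.card (chevG2.diagonalSubgroup F) = (q - 1) ^ chevG2.rank := by
  have h := good5.toGood2.H_card_of_smith (F := F) hq (matOf 2 [[0, -1], [1, 2]])
    (matOf 2 [[1, 2], [0, 1]])
    (matOf 2 [[2, 1], [-1, 0]])
    (matOf 2 [[1, -2], [0, 1]])
    (dOfA 2 [1, 1]) (by decide +kernel) (by decide +kernel) (by decide +kernel) (by decide +kernel) (by decide +kernel)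
  have h2 : (∏ i : Fin chevG2.rank, Nat.gcd (dOfA 2 [1, 1] i) (q - 1)) = 1 := by
    show (∏ i : Fin 2, Nat.gcd (dOfA 2 [1, 1] i) (q - 1)) = 1
    simp [Fin.prod_univ_succ, dOfA, sq]
  rw [h2] at h
  exact h


/-- The symmetry of the diagram. -/
def aut_swap : Equiv.Perm (Fin chevG2.rank) := Equiv.swap ⟨0, by decide⟩ ⟨1, by decide⟩

theorem aut_swap_ne : aut_swap ≠ 1 := by decide +kernel
theorem aut_swap_0 : aut_swap ⟨0, by decide⟩ = ⟨1, by decide⟩ := by decide +kernel
theorem aut_swap_1 : aut_swap ⟨1, by decide⟩ = ⟨0, by decide⟩ := by decide +kernel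

theorem aut_swap_of (ρ : Equiv.Perm (Fin chevG2.rank)) : ρ = 1 ∨ ρ = aut_swap := by
  rcases aut_perm ρ with h | ⟨h0, h1⟩
  · exact Or.inl h
  · right
    apply Equiv.ext
    intro i
    rcases aut_fin i with rfl | rfl
    · rw [h0, aut_swap_0]
    · rw [h1, aut_swap_1]

theorem aut_hT1 : ∀ i j, i < chevG2.rank → j < chevG2.rank → i ≠ j → chevG2.cartan i (chevG2.simple j) = 0 →
      good5.W j (chevG2.simple i) = chevG2.simple i ∧ good5.S j (chevG2.simple i) = 1 :=
  fun i j hi hj h => aut_hT1' i hi j hj h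

variable {F : Type*} [Field F]

theorem aut_swap_mem [Finite F] [CharP F 3] : aut_swap ∈ GP good5 F := by
  haveI : Fact (Nat.Prime 3) := ⟨Nat.prime_three⟩
  obtain ⟨α, hα⟩ := exc_G2 (K := F) (pow_char_surj 3)
  exact exc_mem_GP good5 exc α (fun hr hg => hα hr hg) aut_swap (by decide +kernel) (by decide +kernel)
    (by decide +kernel) (by decide +kernel)

theorem aut_GP_three [Finite F] [CharP F 3] : Nat.card (GP good5 F) = 2 :=
  good5.GP_card_two aut_hT1 aut_swap_ne aut_swap_mem (fun ρ _ => aut_swap_of ρ)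

theorem aut_exp_0 (c : ℕ) : chevG2.graphExp c 0 1 = c := by
  unfold ChevalleyDatum.graphExp
  simp only [aut_long0, aut_long1]
  rfl

theorem aut_exp_1 (c : ℕ) : chevG2.graphExp c 1 0 = 1 := by
  unfold ChevalleyDatum.graphExp
  simp only [aut_long0, aut_long1]
  rfl

theorem aut_GP_ne [Finite F] (p : ℕ) [Fact p.Prime] [CharP F p] (h3 : p ≠ 3) (hq : 3 ≤ Nat.card F) :
    Nat.card (GP good5 F) = 1 := by
  apply GP_card_one_of
  intro ρ hρ
  rcases aut_swap_of ρ with h | rfl
  · exact h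
  · exfalso
    obtain ⟨_, σ, hR, hσ⟩ := good5.GP_rel aut_hT1 hρ
    have hc : ringChar F = p := ringChar.eq F p
    apply no_frob_cube (F := F) p h3 hq
    intro t
    have hab := edge_pow hR (i := ⟨0, by decide⟩) (j := ⟨1, by decide⟩) (m := 3) (by decide)
      (by rw [aut_swap_0, aut_swap_1]; decide +kernel) (by decide +kernel) t
    rw [hσ, hσ, aut_swap_0, aut_swap_1] at hab
    simp only at hab
    rw [aut_exp_0, aut_exp_1, hc, pow_one] at hab
    exact hab

end Cfsg.Agent.Lib.Chev.TabG2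

namespace Cfsg.Agent.Lib.Chev.TabF4

open Cfsg Cfsg.Lie

theorem aut_Hcard {F : Type*} [Field F] [Fintype F] {q : ℕ} (hq : Fintype.card F = q) :
    1 * Nat.card (chevF4.diagonalSubgroup F) = (q - 1) ^ chevF4.rank := by
  have h := good5.toGood2.H_card_of_smith (F := F) hq (matOf 4 [[-1, 0, 0, 0], [1, 0, -1, 0], [-2, -1, 0, 0], [-2, -2, -2, -1]])
    (matOf 4 [[0, 0, 1, -2], [1, 0, 2, -4], [0, 0, 2, -3], [0, 1, 2, -2]])
    (matOf 4 [[-1, 0, 0, 0], [2, 0, -1, 0], [-1, -1, 0, 0], [0, 2, 2, -1]])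
    (matOf 4 [[-2, 1, 0, 0], [2, 0, -2, 1], [-3, 0, 2, 0], [-2, 0, 1, 0]])
    (dOfA 4 [1, 1, 1, 1]) (by decide +kernel) (by decide +kernel) (by decide +kernel) (by decide +kernel) (by decide +kernel)
  have h2 : (∏ i : Fin chevF4.rank, Nat.gcd (dOfA 4 [1, 1, 1, 1] i) (q - 1)) = 1 := by
    show (∏ i : Fin 4, Nat.gcd (dOfA 4 [1, 1, 1, 1] i) (q - 1)) = 1
    simp [Fin.prod_univ_succ, dOfA, sq]
  rw [h2] at h
  exact h


/-- nodes -/
def aut_revL : List ℕ := [3, 2, 1, 0]

theorem aut_rev_lt : ∀ i : Fin chevF4.rank, aut_revL.getD i.val 0 < chevF4.rank := by decide +kernel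

theorem aut_rev_inv : ∀ i : Fin chevF4.rank, aut_revL.getD (aut_revL.getD i.val 0) 0 = i.val := by decide +kernel

/-- The symmetry of the diagram. -/
def aut_rev : Equiv.Perm (Fin chevF4.rank) where
  toFun i := ⟨aut_revL.getD i.val 0, aut_rev_lt i⟩
  invFun i := ⟨aut_revL.getD i.val 0, aut_rev_lt i⟩
  left_inv i := Fin.ext (aut_rev_inv i)
  right_inv i := Fin.ext (aut_rev_inv i)

theorem aut_rev_ne : aut_rev ≠ 1 := by decide +kernel
theorem aut_rev_val : ∀ i : Fin chevF4.rank, (aut_rev i).val = 3 - i.val := by decide +kernel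
theorem aut_rev_1 : aut_rev ⟨1, by decide⟩ = ⟨2, by decide⟩ := by decide +kernel
theorem aut_rev_2 : aut_rev ⟨2, by decide⟩ = ⟨1, by decide⟩ := by decide +kernel

theorem aut_rev_of (ρ : Equiv.Perm (Fin chevF4.rank)) (hZ : ZeroPat chevF4 ρ) : ρ = 1 ∨ ρ = aut_rev := by
  rcases aut_perm ρ hZ with h | h
  · exact Or.inl h
  · right
    apply Equiv.ext
    intro i
    apply Fin.ext
    rw [h, aut_rev_val]

theorem aut_hT1 : ∀ i j, i < chevF4.rank → j < chevF4.rank → i ≠ j → chevF4.cartan i (chevF4.simple j) = 0 →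
      good5.W j (chevF4.simple i) = chevF4.simple i ∧ good5.S j (chevF4.simple i) = 1 :=
  fun i j hi hj h => aut_hT1' i hi j hj h

variable {F : Type*} [Field F]

theorem aut_rev_mem [Finite F] [CharP F 2] : aut_rev ∈ GP good5 F := by
  haveI : Fact (Nat.Prime 2) := ⟨Nat.prime_two⟩
  obtain ⟨α, hα⟩ := exc_F4 (K := F) (pow_char_surj 2)
  exact exc_mem_GP good5 exc α (fun hr hg => hα hr hg) aut_rev (by decide +kernel) (by decide +kernel)
    (by decide +kernel) (by decide +kernel)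

theorem aut_GP_two [Finite F] [CharP F 2] : Nat.card (GP good5 F) = 2 :=
  good5.GP_card_two aut_hT1 aut_rev_ne aut_rev_mem aut_rev_of

theorem aut_exp_1 (c : ℕ) : chevF4.graphExp c 1 2 = c := by
  unfold ChevalleyDatum.graphExp
  simp only [aut_long1, aut_long2]
  rfl

theorem aut_exp_2 (c : ℕ) : chevF4.graphExp c 2 1 = 1 := by
  unfold ChevalleyDatum.graphExp
  simp only [aut_long1, aut_long2]
  rfl

theorem aut_GP_ne [Finite F] (p : ℕ) [Fact p.Prime] [CharP F p] (h2 : p ≠ 2) :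
    Nat.card (GP good5 F) = 1 := by
  apply GP_card_one_of
  intro ρ hρ
  obtain ⟨hZ, σ, hR, hσ⟩ := good5.GP_rel aut_hT1 hρ
  rcases aut_rev_of ρ hZ with h | rfl
  · exact h
  · exfalso
    have hc : ringChar F = p := ringChar.eq F p
    apply no_frob_sq (F := F) p h2
    intro t
    have hab := edge_pow hR (i := ⟨1, by decide⟩) (j := ⟨2, by decide⟩) (m := 2) (by decide)
      (by rw [aut_rev_1, aut_rev_2]; decide +kernel) (by decide +kernel) t
    rw [hσ, hσ, aut_rev_1, aut_rev_2] at hab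
    simp only at hab
    rw [aut_exp_1, aut_exp_2, hc, pow_one] at hab
    exact hab

end Cfsg.Agent.Lib.Chev.TabF4
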