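import Cfsg.Agent.Lib.Chev.Aut.Count
import Mathlib.FieldTheory.Finite.GaloisField

/-! General facts for computing the order of the outer automorphism group. -/

set_option autoImplicit false
set_option linter.unusedSimpArgs false
set_option linter.unusedVariables false
set_option linter.unusedSectionVars false
set_option linter.style.haveILetI false

namespace Cfsg.Agent.Lib.Chev

open Cfsg Cfsg.Lie Matrix BNPair Cfsg.Agent.Lib.BN
open Good2 (NN)
open Good3 (QJ Shape Shape_mul Shape_diag_mul)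

/-- The number of automorphisms of a finite field. -/
theorem card_ringEquiv_self {F : Type*} [Field F] [Fintype F] (p f : ℕ) [hp : Fact p.Prime] [CharP F p]
    (hF : Fintype.card F = p ^ f) : Nat.card (F ≃+* F) = f := by
  classical
  letI : Algebra (ZMod p) F := ZMod.algebra F p
  have hfr : Module.finrank (ZMod p) F = f := by
    have h1 := Module.card_eq_pow_finrank (K := ZMod p) (V := F)
    rw [ZMod.card, hF] at h1
    exact (Nat.pow_right_injective hp.out.two_le h1).symm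
  let Φ : (F ≃+* F) ≃ (F ≃ₐ[ZMod p] F) :=
    { toFun := fun σ => AlgEquiv.ofRingEquiv (f := σ) (fun r => by
        have : ((σ : F →+* F).comp (algebraMap (ZMod p) F)) = algebraMap (ZMod p) F := RingHom.ext_zmod _ _
        exact congrArg (fun φ : ZMod p →+* F => φ r) this)
      invFun := fun τ => τ.toRingEquiv
      left_inv := fun σ => by ext t; rfl
      right_inv := fun τ => by ext t; rfl }
  rw [Nat.card_congr Φ, IsGalois.card_aut_eq_finrank, hfr]

/-- A tuple from a list. -/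
def dOfA (n : ℕ) (L : List ℕ) : Fin n → ℕ := fun i => L.getD i.val 1

variable {D : ChevalleyDatum} {F : Type*} [Field F]

theorem graphExp_self (c : ℕ) (i : ℕ) : D.graphExp c i i = 1 := by
  unfold ChevalleyDatum.graphExp
  simp

theorem graphExp_of_short (c : ℕ) {i j : ℕ} (h : D.isLong (D.simple j) = false) : D.graphExp c i j = 1 := by
  unfold ChevalleyDatum.graphExp
  simp [h]

namespace Good2

variable (G : Good2 D)
include G

/-- A permutation of the root elements preserving positivity preserves `U` and `V`. -/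
theorem pres_of_perm {θ : ↥(D.group F) ≃* ↥(D.group F)} (π π' : ℕ → ℕ) (hπ : ∀ r, r < D.nroots → π r < D.nroots)
    (hπ' : ∀ r, r < D.nroots → π' r < D.nroots) (a a' : ℕ → F → F)
    (h1 : ∀ (r : ℕ) (hr : r < D.nroots) (t : F), θ (G.xR hr t) = G.xR (hπ r hr) (a r t))
    (h2 : ∀ (r : ℕ) (hr : r < D.nroots) (t : F), θ.symm (G.xR hr t) = G.xR (hπ' r hr) (a' r t))
    (hp : ∀ r, D.IsPosRoot r → D.IsPosRoot (π r)) (hp' : ∀ r, D.IsPosRoot r → D.IsPosRoot (π' r))
    (hn : ∀ r, D.IsNegRoot r → D.IsNegRoot (π r)) (hn' : ∀ r, D.IsNegRoot r → D.IsNegRoot (π' r)) : Pres θ := by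
  have hc : ∀ {P : ℕ → Prop} (hP : ∀ r, P r → r < D.nroots) (h3 : ∀ r, P r → P (π r)) (h4 : ∀ r, P r → P (π' r)),
      Carries θ (rG D F P) (rG D F P) := by
    intro P hP h3 h4 y
    constructor
    · intro hy
      exact G.map_rG_le θ hP (fun r hr t hq => by
        rw [h1]
        exact G.xg_mem (hπ r hr) (h3 r hq) _) hy
    · intro hy
      have := G.map_rG_le θ.symm hP (fun r hr t hq => by
        rw [h2]
        exact G.xg_mem (hπ' r hr) (h4 r hq) _) hy
      simpa using this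
  exact ⟨hc (fun _ h => h.1) hp hp', hc (fun _ h => h.1) hn hn'⟩

end Good2

/-- The graph automorphism attached to symmetry data. -/
theorem GraphData.mem_GP (G : Good5 D) (A : GraphData D) (ρ : Equiv.Perm (Fin D.rank))
    (h1 : ∀ i : Fin D.rank, A.ρ (D.simple i) = D.simple (ρ i))
    (h2 : ∀ i : Fin D.rank, A.ρ (D.neg (D.simple i)) = D.neg (D.simple (ρ i)))
    (h3 : ∀ i : Fin D.rank, A.ε (D.simple i) = 1) (h4 : ∀ i : Fin D.rank, A.ε (D.neg (D.simple i)) = 1)
    (h5 : ∀ i : Fin D.rank, D.isLong (D.simple (ρ i)) = false)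
    (hp : ∀ r, D.IsPosRoot r → D.IsPosRoot (A.ρ r)) (hp' : ∀ r, D.IsPosRoot r → D.IsPosRoot (A.ρ' r))
    (hn : ∀ r, D.IsNegRoot r → D.IsNegRoot (A.ρ r)) (hn' : ∀ r, D.IsNegRoot r → D.IsNegRoot (A.ρ' r)) :
    ρ ∈ GP G F := by
  refine ⟨A.groupAut G.toGood0 F, ?_, ?_⟩
  · refine G.toGood2.pres_of_perm A.ρ A.ρ' (fun r hr => (A.hr r hr).1) (fun r hr => (A.hr r hr).2.1)
      (fun r t => ((A.ε r : ℤ) : F) * t) (fun r t => ((A.ε (A.ρ' r) : ℤ) : F) * t) ?_ ?_ hp hp' hn hn'
    · intro r hr t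
      apply Subtype.ext
      exact A.gU_conj G.toGood0 hr t
    · intro r hr t
      apply Subtype.ext
      exact A.gU_inv_conj G.toGood0 hr t
  · intro i t
    constructor
    · apply Subtype.ext
      rw [graphExp_of_short _ (h5 i), pow_one]
      have := A.gU_conj (F := F) G.toGood0 (G.simple_lt i.isLt) t
      apply Units.ext
      refine (congrArg Units.val this).trans ?_
      simp only [Good0.xg_val]
      rw [h3, h1, Int.cast_one, one_mul]
      rfl
    · apply Subtype.ext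
      rw [graphExp_of_short _ (h5 i), pow_one]
      have := A.gU_conj (F := F) G.toGood0 (G.neg_lt (G.simple_lt i.isLt)) t
      apply Units.ext
      refine (congrArg Units.val this).trans ?_
      simp only [Good0.xg_val]
      rw [h4, h2, Int.cast_one, one_mul]
      rfl

namespace Good5

variable (G : Good5 D)

theorem one_mem_GP : (1 : Equiv.Perm (Fin D.rank)) ∈ GP G F := by
  refine ⟨1, Pres.one, ?_⟩
  intro i t
  simp only [MulAut.one_apply, Equiv.Perm.one_apply, graphExp_self, pow_one, and_self]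

/-- The form of an element of `GP`. -/
theorem GP_rel [Finite F]
    (hT1 : ∀ i j, i < D.rank → j < D.rank → i ≠ j → D.cartan i (D.simple j) = 0 →
      G.W j (D.simple i) = D.simple i ∧ G.S j (D.simple i) = 1)
    {ρ : Equiv.Perm (Fin D.rank)} (hρ : ρ ∈ GP G F) :
    ZeroPat D ρ ∧ ∃ σ : Fin D.rank → (F ≃+* F), NodeRel D ρ σ ∧ ∀ (i : Fin D.rank) (t : F), σ i t = t ^ D.graphExp (ringChar F) i (ρ i) := by
  obtain ⟨g, hg, hw⟩ := hρ
  obtain ⟨ρ', c, σ, hf⟩ := G.pres_form hg
  have hρ' : ∀ i, ρ' i = ρ i := by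
    intro i
    have h1 := (hf i 1).1
    rw [(hw i 1).1, one_pow, map_one, mul_one] at h1
    have h2 := G.toGood2.x_root_eq' (G.simple_lt (ρ i).isLt) (G.toGood2.simple_pos (ρ i).isLt) (G.simple_lt (ρ' i).isLt)
      one_ne_zero (Units.ne_zero _) (congrArg Subtype.val h1)
    exact Fin.ext (G.toGood2.simple_inj (ρ' i).isLt (ρ i).isLt h2)
  have hρe : ρ' = ρ := Equiv.ext hρ'
  subst hρe
  have hc : ∀ i, (c i : F) = 1 := by
    intro i
    have h1 := (hf i 1).1
    rw [(hw i 1).1, one_pow, map_one, mul_one] at h1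
    exact (G.toGood2.xR_inj _ h1).symm
  have hσ : ∀ (i : Fin D.rank) (t : F), σ i t = t ^ D.graphExp (ringChar F) i (ρ' i) := by
    intro i t
    have h1 := (hf i t).1
    rw [(hw i t).1, hc, one_mul] at h1
    exact (G.toGood2.xR_inj _ h1).symm
  have hθ : ∀ (i : Fin D.rank) (t : F), g (G.toGood2.xR (G.simple_lt i.isLt) t) = G.toGood2.xR (G.simple_lt (ρ' i).isLt) (σ i t) ∧
      g (G.toGood2.xR (G.neg_lt (G.simple_lt i.isLt)) t) = G.toGood2.xR (G.neg_lt (G.simple_lt (ρ' i).isLt)) (σ i t) := by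
    intro i t
    obtain ⟨h1, h2⟩ := hw i t
    rw [h1, h2, hσ]
    exact ⟨rfl, rfl⟩
  obtain ⟨h1, h2⟩ := G.node_rels hT1 hθ
  exact ⟨h2, σ, h1, hσ⟩

theorem GP_card_one [Finite F]
    (hT1 : ∀ i j, i < D.rank → j < D.rank → i ≠ j → D.cartan i (D.simple j) = 0 →
      G.W j (D.simple i) = D.simple i ∧ G.S j (D.simple i) = 1)
    (h : ∀ ρ : Equiv.Perm (Fin D.rank), ZeroPat D ρ → ρ = 1) : Nat.card (GP G F) = 1 := by
  have e : GP G F = {1} := by
    ext ρ
    constructor
    · intro hρ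
      exact h ρ (G.GP_rel hT1 hρ).1
    · rintro rfl
      exact G.one_mem_GP
  rw [e]
  simp

theorem GP_card_two [Finite F]
    (hT1 : ∀ i j, i < D.rank → j < D.rank → i ≠ j → D.cartan i (D.simple j) = 0 →
      G.W j (D.simple i) = D.simple i ∧ G.S j (D.simple i) = 1)
    {ρ₀ : Equiv.Perm (Fin D.rank)} (h0 : ρ₀ ≠ 1) (h1 : ρ₀ ∈ GP G F)
    (h : ∀ ρ : Equiv.Perm (Fin D.rank), ZeroPat D ρ → ρ = 1 ∨ ρ = ρ₀) : Nat.card (GP G F) = 2 := by
  have e : GP G F = {1, ρ₀} := by
    ext ρ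
    constructor
    · intro hρ
      rcases h ρ (G.GP_rel hT1 hρ).1 with h2 | h2
      · exact Or.inl h2
      · exact Or.inr h2
    · rintro (rfl | rfl)
      · exact G.one_mem_GP
      · exact h1
  rw [e, Nat.card_eq_fintype_card]
  simp [Set.card_insert, h0.symm]

/-- The formula for the order of `Out`, as used. -/
theorem out_card_formula [Fintype F] (hrc : ∀ i, i < D.rank → G.rc (D.simple i) i = 1)
    (hT1 : ∀ i j, i < D.rank → j < D.rank → i ≠ j → D.cartan i (D.simple j) = 0 →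
      G.W j (D.simple i) = D.simple i ∧ G.S j (D.simple i) = 1)
    (hfin : ∀ (ρ : Equiv.Perm (Fin D.rank)) (σ : Fin D.rank → (F ≃+* F)), NodeRel D ρ σ → ZeroPat D ρ →
      D.IsDiagramSymmetry ρ ∧ ∃ σ₀ : F ≃+* F, ∀ (i : Fin D.rank) (t : F), σ i t = (σ₀ t) ^ D.graphExp (ringChar F) i (ρ i))
    (p f : ℕ) [Fact p.Prime] [CharP F p] (hF : Fintype.card F = p ^ f) (d : ℕ)
    (hd : d * Nat.card (D.diagonalSubgroup F) = (p ^ f - 1) ^ D.rank) :
    Nat.card (Out ↥(D.group F)) = d * (Nat.card (GP G F) * f) := by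
  rw [G.out_card hrc hT1 hfin, card_ringEquiv_self p f hF]
  have h1 := G.barD_card (F := F) hrc hF
  have h2 : 0 < Nat.card (D.diagonalSubgroup F) := Nat.card_pos
  rw [Nat.eq_of_mul_eq_mul_right h2 (h1.trans hd.symm)]

end Good5

end Cfsg.Agent.Lib.Chev
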