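import Cfsg.Agent.Lib.Chev.Aut.OutGen
import Cfsg.Agent.Lib.KnownSimple.ChevChar
import Mathlib.GroupTheory.Commutator.Basic

/-! The structure of the outer automorphism group. -/

set_option autoImplicit false
set_option linter.unusedSimpArgs false
set_option linter.unusedVariables false
set_option linter.unusedSectionVars false
set_option linter.style.haveILetI false

namespace Cfsg.Agent.Lib.Chev

open Cfsg Cfsg.Lie Matrix BNPair Cfsg.Agent.Lib.BN
open Good2 (NN)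
open Good3 (QJ Shape Shape_mul Shape_diag_mul)
open scoped Pointwise commutatorElement

/-- The group of automorphisms of a finite field is cyclic. -/
theorem isCyclic_ringAut (F : Type*) [Field F] [Finite F] : IsCyclic (RingAut F) := by
  classical
  obtain ⟨p, hp⟩ := CharP.exists F
  haveI : Fact p.Prime := ⟨CharP.char_is_prime F p⟩
  letI : Algebra (ZMod p) F := ZMod.algebra F p
  let φ : (F ≃ₐ[ZMod p] F) →* RingAut F := MonoidHom.mk' (fun τ => τ.toRingEquiv) (fun _ _ => rfl)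
  refine isCyclic_of_surjective φ (fun σ => ⟨AlgEquiv.ofRingEquiv (f := σ) (fun r => by
        have : ((σ : F →+* F).comp (algebraMap (ZMod p) F)) = algebraMap (ZMod p) F := RingHom.ext_zmod _ _
        exact congrArg (fun φ : ZMod p →+* F => φ r) this), ?_⟩)
  ext t
  rfl

theorem ringAut_comm (F : Type*) [Field F] [Finite F] (σ τ : RingAut F) : σ * τ = τ * σ := by
  haveI := isCyclic_ringAut F
  obtain ⟨g, hg⟩ := IsCyclic.exists_generator (α := RingAut F)
  obtain ⟨a, rfl⟩ := Subgroup.mem_zpowers_iff.mp (hg σ)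
  obtain ⟨b, rfl⟩ := Subgroup.mem_zpowers_iff.mp (hg τ)
  rw [← _root_.zpow_add, ← _root_.zpow_add, add_comm]

variable {D : ChevalleyDatum} {F : Type*} [Field F]

/-- The projection to the outer automorphism group. -/
noncomputable def mkO (D : ChevalleyDatum) (F : Type*) [Field F] : MulAut ↥(D.group F) →* Out ↥(D.group F) :=
  QuotientGroup.mk' (Inn ↥(D.group F))

theorem mkO_surj (a : Out ↥(D.group F)) : ∃ θ, a = mkO D F θ := by
  obtain ⟨θ, rfl⟩ := QuotientGroup.mk_surjective a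
  exact ⟨θ, rfl⟩

theorem mkO_conj (x : ↥(D.group F)) : mkO D F (MulAut.conj x) = 1 :=
  (QuotientGroup.eq_one_iff _).mpr ⟨x, rfl⟩

theorem mkO_eq_one {α : MulAut ↥(D.group F)} (h : mkO D F α = 1) : ∃ x : ↥(D.group F), α = MulAut.conj x := by
  obtain ⟨x, hx⟩ := (QuotientGroup.eq_one_iff _).mp h
  exact ⟨x, hx.symm⟩

namespace Good5

variable (G : Good5 D)

/-- The field automorphisms as a homomorphism. -/
noncomputable def fAHom (G : Good5 D) : RingAut F →* MulAut ↥(D.group F) :=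
  MonoidHom.mk' (fun σ => fA σ) (by
    intro σ τ
    apply G.toGood2.aut_ext
    · intro i hi t
      show fA (σ * τ) _ = fA σ (fA τ _)
      rw [G.fA_x, G.fA_x, G.fA_x]
      rfl
    · intro i hi t
      show fA (σ * τ) _ = fA σ (fA τ _)
      rw [G.fA_x, G.fA_x, G.fA_x]
      rfl)

theorem fAHom_apply (σ : RingAut F) : G.fAHom σ = fA σ := rfl

include G

theorem fA_refl : fA (D := D) (RingEquiv.refl F) = 1 := by
  have := map_one (G.fAHom (F := F))
  exact this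

theorem isField_eq {φ : ↥(D.group F) ≃* ↥(D.group F)} (h : D.IsFieldAut φ) : ∃ σ : F ≃+* F, φ = fA σ := by
  obtain ⟨σ, hσ⟩ := h
  refine ⟨σ, G.toGood2.aut_ext ?_ ?_⟩
  · intro i hi t
    rw [G.fA_x]
    apply Subtype.ext
    apply Units.ext
    exact hσ _ _ t (G.simple_lt hi) rfl
  · intro i hi t
    rw [G.fA_x]
    apply Subtype.ext
    apply Units.ext
    exact hσ _ _ t (G.neg_lt (G.simple_lt hi)) rfl

theorem GW_comm_fA {g : ↥(D.group F) ≃* ↥(D.group F)} {ρ : Equiv.Perm (Fin D.rank)} (hw : GW G g ρ) (τ : F ≃+* F) :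
    g * fA τ = fA τ * g := by
  apply G.toGood2.aut_ext
  · intro i hi t
    show g (fA τ _) = fA τ (g _)
    rw [G.fA_x, (hw ⟨i, hi⟩ _).1, (hw ⟨i, hi⟩ _).1, G.fA_x, map_pow]
  · intro i hi t
    show g (fA τ _) = fA τ (g _)
    rw [G.fA_x, (hw ⟨i, hi⟩ _).2, (hw ⟨i, hi⟩ _).2, G.fA_x, map_pow]

variable (hrc : ∀ i, i < D.rank → G.rc (D.simple i) i = 1)
include hrc

theorem isDiag_eq (hc : Cfsg.Agent.Lib.KnownSimple.chainChkAll D = true) {φ : ↥(D.group F) ≃* ↥(D.group F)}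
    (h : D.IsDiagonalAut φ) : ∃ b : Fin D.rank → Fˣ, φ = G.dgHom hrc b := by
  obtain ⟨χ, hχ, hφ⟩ := h
  have key : ∀ {r : ℕ} (hr : r < D.nroots) (t : F), φ (G.toGood2.xR hr t) = G.toGood2.xR hr ((χ r : F) * t) := by
    intro r hr t
    apply Subtype.ext
    apply Units.ext
    rw [hφ]
    exact Cfsg.Agent.Lib.KnownSimple.charDiag_conj_x D hc hχ r hr t
  refine ⟨fun i => χ (D.simple i), G.toGood2.aut_ext ?_ ?_⟩
  · intro i hi t
    rw [key, G.dgHom_simple hrc _ ⟨i, hi⟩]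
  · intro i hi t
    rw [key, G.dgHom_neg hrc _ ⟨i, hi⟩, hχ.1 _ (G.simple_lt hi)]
    simp

/-- Automorphisms preserving `U`, `V` normalise the diagonal automorphisms. -/
theorem pres_conj_dg [Finite F] {θ : MulAut ↥(D.group F)} (hθ : Pres θ) (b : Fin D.rank → Fˣ) :
    ∃ b' : Fin D.rank → Fˣ, θ * G.dgHom hrc b * θ⁻¹ = G.dgHom hrc b' := by
  obtain ⟨ρ, c, σ, hf⟩ := G.pres_form hθ
  let b' : Fin D.rank → Fˣ := fun k => Units.map ((σ (ρ.symm k) : F ≃+* F) : F →* F) (b (ρ.symm k))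
  have hb' : ∀ i, (b' (ρ i) : F) = σ i (b i) := by
    intro i
    simp [b']
  refine ⟨b', ?_⟩
  rw [mul_inv_eq_iff_eq_mul]
  apply G.toGood2.aut_ext
  · intro i hi t
    show θ (G.dgHom hrc b _) = G.dgHom hrc b' (θ _)
    rw [G.dgHom_simple hrc b ⟨i, hi⟩, (hf ⟨i, hi⟩ _).1, (hf ⟨i, hi⟩ _).1, G.dgHom_simple hrc b', hb', map_mul]
    congr 1
    ring
  · intro i hi t
    show θ (G.dgHom hrc b _) = G.dgHom hrc b' (θ _)
    rw [G.dgHom_neg hrc b ⟨i, hi⟩, (hf ⟨i, hi⟩ _).2, (hf ⟨i, hi⟩ _).2, G.dgHom_neg hrc b', hb', map_mul, map_inv₀]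
    congr 1
    ring

omit hrc in
theorem exists_pres [Finite F] (a : Out ↥(D.group F)) : ∃ θ : MulAut ↥(D.group F), Pres θ ∧ a = mkO D F θ := by
  obtain ⟨θ, rfl⟩ := mkO_surj a
  obtain ⟨x, θ₁, hx, hU, hV⟩ := G.toGood4.toGood3.normalize θ
  refine ⟨θ₁, ⟨hU, hV⟩, ?_⟩
  have e : θ = MulAut.conj x * θ₁ := by
    apply MulEquiv.ext
    intro y
    rw [hx]
    rfl
  rw [e, map_mul, mkO_conj, one_mul]

/-- The diagonal classes form a normal subgroup. -/
theorem barD_normal [Finite F] : (G.barD (F := F) hrc).range.Normal := by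
  constructor
  rintro _ ⟨b, rfl⟩ a
  obtain ⟨θ, hθ, rfl⟩ := G.exists_pres a
  obtain ⟨b', e⟩ := G.pres_conj_dg hrc hθ b
  refine ⟨b', ?_⟩
  show mkO D F (G.dgHom hrc b') = mkO D F θ * mkO D F (G.dgHom hrc b) * (mkO D F θ)⁻¹
  rw [← e, map_mul, map_mul, map_inv]

/-- The classes of field automorphisms. -/
noncomputable def barF (G : Good5 D) : RingAut F →* Out ↥(D.group F) := (mkO D F).comp G.fAHom

omit hrc in
theorem barD_apply (hrc : ∀ i, i < D.rank → G.rc (D.simple i) i = 1) (b : Fin D.rank → Fˣ) :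
    G.barD (F := F) hrc b = mkO D F (G.dgHom hrc b) := rfl

omit hrc in
theorem barF_apply (σ : RingAut F) : G.barF σ = mkO D F (fA σ) := rfl

theorem closure_diag (hc : Cfsg.Agent.Lib.KnownSimple.chainChkAll D = true) :
    (Subgroup.closure {φ : MulAut ↥(D.group F) | D.IsDiagonalAut φ}).map (QuotientGroup.mk' (Inn ↥(D.group F))) =
      (G.barD (F := F) hrc).range := by
  have e : Subgroup.closure {φ : MulAut ↥(D.group F) | D.IsDiagonalAut φ} = (G.dgHom (F := F) hrc).range := by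
    apply le_antisymm
    · rw [Subgroup.closure_le]
      intro φ hφ
      obtain ⟨b, rfl⟩ := G.isDiag_eq hrc hc hφ
      exact ⟨b, rfl⟩
    · rintro _ ⟨b, rfl⟩
      exact Subgroup.subset_closure (G.dgHom_diag hrc b)
  rw [e]
  ext a
  constructor
  · rintro ⟨_, ⟨b, rfl⟩, rfl⟩
    exact ⟨b, rfl⟩
  · rintro ⟨b, rfl⟩
    exact ⟨_, ⟨b, rfl⟩, rfl⟩

omit hrc in
theorem closure_field :
    (Subgroup.closure {φ : MulAut ↥(D.group F) | D.IsFieldAut φ}).map (QuotientGroup.mk' (Inn ↥(D.group F))) =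
      (G.barF (F := F)).range := by
  have e : Subgroup.closure {φ : MulAut ↥(D.group F) | D.IsFieldAut φ} = (G.fAHom (F := F)).range := by
    apply le_antisymm
    · rw [Subgroup.closure_le]
      intro φ hφ
      obtain ⟨b, rfl⟩ := G.isField_eq hφ
      exact ⟨b, rfl⟩
    · rintro _ ⟨b, rfl⟩
      exact Subgroup.subset_closure (G.fA_field b)
  rw [e]
  ext a
  constructor
  · rintro ⟨_, ⟨b, rfl⟩, rfl⟩
    exact ⟨b, rfl⟩
  · rintro ⟨b, rfl⟩
    exact ⟨_, ⟨b, rfl⟩, rfl⟩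

variable (hT1 : ∀ i j, i < D.rank → j < D.rank → i ≠ j → D.cartan i (D.simple j) = 0 →
      G.W j (D.simple i) = D.simple i ∧ G.S j (D.simple i) = 1)
    (hfin : ∀ (ρ : Equiv.Perm (Fin D.rank)) (σ : Fin D.rank → (F ≃+* F)), NodeRel D ρ σ → ZeroPat D ρ →
      D.IsDiagramSymmetry ρ ∧ ∃ σ₀ : F ≃+* F, ∀ (i : Fin D.rank) (t : F), σ i t = (σ₀ t) ^ D.graphExp (ringChar F) i (ρ i))
include hT1 hfin

/-- Representation of outer automorphisms. -/
theorem out_rep [Finite F] (a : Out ↥(D.group F)) :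
    ∃ (b : Fin D.rank → Fˣ) (ρ : Equiv.Perm (Fin D.rank)) (g : MulAut ↥(D.group F)) (σ₀ : F ≃+* F),
      Pres g ∧ GW G g ρ ∧ a = G.barD hrc b * mkO D F g * G.barF σ₀ := by
  obtain ⟨θ, rfl⟩ := mkO_surj a
  obtain ⟨x, b, ρ, g, σ₀, hg, hw, _, e⟩ := G.decomp hrc hT1 hfin θ
  refine ⟨b, ρ, g, σ₀, hg, hw, ?_⟩
  rw [e, map_mul, map_mul, map_mul, mkO_conj, one_mul]
  rfl

/-- The subgroup generated by diagonal and field classes is normal. -/
theorem sup_normal [Finite F] : ((G.barD (F := F) hrc).range ⊔ (G.barF (F := F)).range).Normal := by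
  haveI := G.barD_normal (F := F) hrc
  constructor
  intro n hn a
  let K : Subgroup (Out ↥(D.group F)) :=
    ((G.barD (F := F) hrc).range ⊔ (G.barF (F := F)).range).comap (MulAut.conj a).toMonoidHom
  have h1 : (G.barD (F := F) hrc).range ≤ K := by
    intro d hd
    apply (le_sup_left : (G.barD (F := F) hrc).range ≤ _)
    exact Subgroup.Normal.conj_mem inferInstance d hd a
  have h2 : (G.barF (F := F)).range ≤ K := by
    rintro _ ⟨τ, rfl⟩
    obtain ⟨b, ρ, g, σ₀, hg, hw, rfl⟩ := G.out_rep hrc hT1 hfin a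
    show G.barD hrc b * mkO D F g * G.barF σ₀ * G.barF τ * (G.barD hrc b * mkO D F g * G.barF σ₀)⁻¹ ∈
      (G.barD (F := F) hrc).range ⊔ (G.barF (F := F)).range
    have e1 : G.barF σ₀ * G.barF τ = G.barF τ * G.barF σ₀ := by
      rw [← map_mul, ← map_mul, ringAut_comm]
    have e2 : mkO D F g * G.barF τ = G.barF τ * mkO D F g := by
      rw [barF_apply, ← map_mul, ← map_mul, G.GW_comm_fA hw]
    have e3 : G.barD hrc b * mkO D F g * G.barF σ₀ * G.barF τ * (G.barD hrc b * mkO D F g * G.barF σ₀)⁻¹ =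
        (G.barD hrc b * (G.barF τ * (G.barD hrc b)⁻¹ * (G.barF τ)⁻¹)) * G.barF τ := by
      calc _ = G.barD hrc b * mkO D F g * (G.barF σ₀ * G.barF τ) * (G.barF σ₀)⁻¹ * (mkO D F g)⁻¹ * (G.barD hrc b)⁻¹ := by group
        _ = G.barD hrc b * (mkO D F g * G.barF τ) * (mkO D F g)⁻¹ * (G.barD hrc b)⁻¹ := by rw [e1]; group
        _ = _ := by rw [e2]; group
    rw [e3]
    apply Subgroup.mul_mem
    · apply (le_sup_left : (G.barD (F := F) hrc).range ≤ _)
      have hb : G.barD hrc b ∈ (G.barD (F := F) hrc).range := ⟨b, rfl⟩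
      apply Subgroup.mul_mem _ hb
      exact Subgroup.Normal.conj_mem inferInstance _ (Subgroup.inv_mem _ hb) _
    · exact (le_sup_right : (G.barF (F := F)).range ≤ _) ⟨τ, rfl⟩
  exact (sup_le h1 h2) hn

/-- Elements of the subgroup generated by the diagonal and field classes do not move the diagram. -/
theorem perm_inj [Finite F] {g g' : MulAut ↥(D.group F)} {ρ ρ' : Equiv.Perm (Fin D.rank)}
    (hg : Pres g) (hw : GW G g ρ) (hg' : Pres g') (hw' : GW G g' ρ')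
    (h : (mkO D F g)⁻¹ * mkO D F g' ∈ (G.barD (F := F) hrc).range ⊔ (G.barF (F := F)).range) : ρ = ρ' := by
  haveI := G.barD_normal (F := F) hrc
  have h1 : ((mkO D F g)⁻¹ * mkO D F g') ∈ ((G.barD (F := F) hrc).range : Set (Out ↥(D.group F))) * ((G.barF (F := F)).range : Set (Out ↥(D.group F))) := by
    rw [← Subgroup.normal_mul]
    exact h
  obtain ⟨_, ⟨b, rfl⟩, _, ⟨σ, rfl⟩, e⟩ := h1
  simp only at e
  obtain ⟨b', hb'⟩ := G.pres_conj_dg hrc hg b
  have e' : mkO D F g' = mkO D F (G.dgHom hrc b' * g * fA σ) := by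
    rw [map_mul, map_mul, ← hb', map_mul, map_mul, map_inv]
    have e1 : mkO D F g' = mkO D F g * (G.barD hrc b * G.barF σ) := by
      rw [e]
      group
    rw [e1, barD_apply, barF_apply]
    group
  have e2 : mkO D F ((G.dgHom hrc b' * g * fA σ) * g'⁻¹) = 1 := by
    rw [map_mul, map_inv, ← e', mul_inv_cancel]
  obtain ⟨y, hy⟩ := mkO_eq_one e2
  have e3 : G.dgHom hrc b' * g * fA σ = (MulAut.conj y : MulAut ↥(D.group F)) * (G.dgHom hrc 1 * g' * fA (RingEquiv.refl F)) := by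
    rw [map_one, G.fA_refl, one_mul, mul_one, ← hy, inv_mul_cancel_right]
  exact (G.decomp_unique hrc hg hw hg' hw' e3).1

/-- The index of the subgroup generated by the diagonal and field classes. -/
theorem sup_index [Finite F] :
    ((G.barD (F := F) hrc).range ⊔ (G.barF (F := F)).range).index = Nat.card (GP G F) := by
  classical
  haveI := G.sup_normal hrc hT1 hfin
  set N := (G.barD (F := F) hrc).range ⊔ (G.barF (F := F)).range with hN
  have hgr : ∀ ρ : GP G F, ∃ g : ↥(D.group F) ≃* ↥(D.group F), Pres g ∧ GW G g ρ.1 := fun ρ => ρ.2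
  choose gr hgrP hgrW using hgr
  let Φ : GP G F → Out ↥(D.group F) ⧸ N := fun ρ => (QuotientGroup.mk (mkO D F (gr ρ)))
  have hbij : Function.Bijective Φ := by
    constructor
    · intro ρ ρ' e
      have h1 : (mkO D F (gr ρ))⁻¹ * mkO D F (gr ρ') ∈ N := QuotientGroup.eq.mp e
      exact Subtype.ext (G.perm_inj hrc hT1 hfin (hgrP ρ) (hgrW ρ) (hgrP ρ') (hgrW ρ') h1)
    · intro q
      obtain ⟨a, rfl⟩ := QuotientGroup.mk_surjective q
      obtain ⟨b, ρ, g, σ₀, hg, hw, rfl⟩ := G.out_rep hrc hT1 hfin a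
      have hρ : ρ ∈ GP G F := ⟨g, hg, hw⟩
      have hgg : gr ⟨ρ, hρ⟩ = g := by
        apply G.toGood2.aut_ext
        · intro i hi t
          rw [(hgrW ⟨ρ, hρ⟩ ⟨i, hi⟩ t).1, (hw ⟨i, hi⟩ t).1]
        · intro i hi t
          rw [(hgrW ⟨ρ, hρ⟩ ⟨i, hi⟩ t).2, (hw ⟨i, hi⟩ t).2]
      refine ⟨⟨ρ, hρ⟩, ?_⟩
      show (QuotientGroup.mk (mkO D F (gr ⟨ρ, hρ⟩)) : Out ↥(D.group F) ⧸ N) = _
      rw [hgg]
      apply QuotientGroup.eq.mpr
      have hmem1 : G.barD hrc b ∈ N := (le_sup_left : (G.barD (F := F) hrc).range ≤ _) ⟨b, rfl⟩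
      have hmem2 : G.barF σ₀ ∈ N := (le_sup_right : (G.barF (F := F)).range ≤ _) ⟨σ₀, rfl⟩
      have e : (mkO D F g)⁻¹ * (G.barD hrc b * mkO D F g * G.barF σ₀) =
          ((mkO D F g)⁻¹ * G.barD hrc b * ((mkO D F g)⁻¹)⁻¹) * G.barF σ₀ := by group
      rw [e]
      exact Subgroup.mul_mem _ (Subgroup.Normal.conj_mem inferInstance _ hmem1 _) hmem2
  rw [Subgroup.index, ← Nat.card_congr (Equiv.ofBijective Φ hbij)]

/-- The structure of the outer automorphism group. -/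
theorem out_struct [Finite F] (hc : Cfsg.Agent.Lib.KnownSimple.chainChkAll D = true)
    (Dbar Fbar : Subgroup (Out ↥(D.group F)))
    (hDbar : Dbar = (Subgroup.closure {φ : MulAut ↥(D.group F) | D.IsDiagonalAut φ}).map (QuotientGroup.mk' (Inn ↥(D.group F))))
    (hFbar : Fbar = (Subgroup.closure {φ : MulAut ↥(D.group F) | D.IsFieldAut φ}).map (QuotientGroup.mk' (Inn ↥(D.group F)))) :
    Dbar.Normal ∧ IsMulCommutative ↥Dbar ∧ IsCyclic ↥Fbar ∧ (Dbar ⊔ Fbar).Normal ∧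
      (Dbar ⊔ Fbar).index = Nat.card (GP G F) := by
  rw [G.closure_diag hrc hc] at hDbar
  rw [G.closure_field] at hFbar
  subst hDbar hFbar
  refine ⟨G.barD_normal hrc, ⟨⟨?_⟩⟩, ?_, G.sup_normal hrc hT1 hfin, G.sup_index hrc hT1 hfin⟩
  · rintro ⟨_, b, rfl⟩ ⟨_, c, rfl⟩
    apply Subtype.ext
    show G.barD hrc b * G.barD hrc c = G.barD hrc c * G.barD hrc b
    rw [← map_mul, ← map_mul, mul_comm]
  · haveI := isCyclic_ringAut F
    exact isCyclic_of_surjective (G.barF (F := F)).rangeRestrict (MonoidHom.rangeRestrict_surjective _)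

/-- Products of graph automorphisms in the simply laced case. -/
theorem GW_mul (hS : ∀ i j : Fin D.rank, D.graphExp (ringChar F) i j = 1)
    {g g' : MulAut ↥(D.group F)} {ρ ρ' : Equiv.Perm (Fin D.rank)} (hw : GW G g ρ) (hw' : GW G g' ρ') :
    GW G (g * g') (ρ * ρ') := by
  intro i t
  constructor
  · show g (g' _) = _
    rw [(hw' i t).1, (hw _ _).1, hS, hS, hS]
    simp
  · show g (g' _) = _
    rw [(hw' i t).2, (hw _ _).2, hS, hS, hS]
    simp

theorem GW_inv (hS : ∀ i j : Fin D.rank, D.graphExp (ringChar F) i j = 1)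
    {g : MulAut ↥(D.group F)} {ρ : Equiv.Perm (Fin D.rank)} (hw : GW G g ρ) :
    GW G g⁻¹ ρ⁻¹ := by
  intro i t
  obtain ⟨j, rfl⟩ := ρ.surjective i
  have e : ρ⁻¹ (ρ j) = j := ρ.symm_apply_apply j
  have h1 := hw j t
  simp only [hS, pow_one] at h1 ⊢
  have k1 : ∀ k : Fin D.rank, k = j → G.toGood2.xR (G.simple_lt (ρ j).isLt) t = g (G.toGood2.xR (G.simple_lt k.isLt) t) := by
    rintro _ rfl
    exact h1.1.symm
  have k2 : ∀ k : Fin D.rank, k = j → G.toGood2.xR (G.neg_lt (G.simple_lt (ρ j).isLt)) t = g (G.toGood2.xR (G.neg_lt (G.simple_lt k.isLt)) t) := by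
    rintro _ rfl
    exact h1.2.symm
  constructor
  · show g.symm _ = _
    rw [MulEquiv.symm_apply_eq]
    exact k1 _ e
  · show g.symm _ = _
    rw [MulEquiv.symm_apply_eq]
    exact k2 _ e

theorem GP_mul (hS : ∀ i j : Fin D.rank, D.graphExp (ringChar F) i j = 1)
    {ρ ρ' : Equiv.Perm (Fin D.rank)} (h : ρ ∈ GP G F) (h' : ρ' ∈ GP G F) : ρ * ρ' ∈ GP G F := by
  obtain ⟨g, hg, hw⟩ := h
  obtain ⟨g', hg', hw'⟩ := h'
  exact ⟨g * g', hg.mul hg', G.GW_mul hrc hT1 hfin hS hw hw'⟩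

/-- A non-commuting pair of graph automorphisms. -/
theorem comm_not_le [Finite F] (hS : ∀ i j : Fin D.rank, D.graphExp (ringChar F) i j = 1)
    {ρ ρ' : Equiv.Perm (Fin D.rank)} (h : ρ ∈ GP G F) (h' : ρ' ∈ GP G F) (hne : ρ * ρ' * ρ⁻¹ * ρ'⁻¹ ≠ 1) :
    ¬ commutator (Out ↥(D.group F)) ≤ (G.barD (F := F) hrc).range ⊔ (G.barF (F := F)).range := by
  intro hle
  obtain ⟨g, hg, hw⟩ := h
  obtain ⟨g', hg', hw'⟩ := h'
  have h1 : ⁅mkO D F g, mkO D F g'⁆ ∈ commutator (Out ↥(D.group F)) :=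
    Subgroup.commutator_mem_commutator (Subgroup.mem_top _) (Subgroup.mem_top _)
  have h2 := hle h1
  have e : ⁅mkO D F g, mkO D F g'⁆ = mkO D F (g * g' * g⁻¹ * g'⁻¹) := by
    rw [commutatorElement_def, map_mul, map_mul, map_mul, map_inv, map_inv]
  rw [e] at h2
  have hw1 : GW G (g * g' * g⁻¹ * g'⁻¹) (ρ * ρ' * ρ⁻¹ * ρ'⁻¹) :=
    G.GW_mul hrc hT1 hfin hS (G.GW_mul hrc hT1 hfin hS (G.GW_mul hrc hT1 hfin hS hw hw') (G.GW_inv hrc hT1 hfin hS hw))
      (G.GW_inv hrc hT1 hfin hS hw')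
  have hw2 : GW G (1 : MulAut ↥(D.group F)) 1 := by
    intro i t
    simp only [MulAut.one_apply, Equiv.Perm.one_apply, graphExp_self, pow_one, and_self]
  have hP : Pres (g * g' * g⁻¹ * g'⁻¹) := ((hg.mul hg').mul hg.inv).mul hg'.inv
  have h3 := G.perm_inj hrc hT1 hfin (g := 1) Pres.one hw2 hP hw1 (by
    rw [map_one, inv_one, one_mul]
    exact h2)
  exact hne h3.symm

end Good5

end Cfsg.Agent.Lib.Chev
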