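import Cfsg.Agent.Lib.Chev.Aut.Finish
import Cfsg.Agent.Lib.Chev.TorusCard

/-! Automorphisms preserving `U` and `V`; generation by the fundamental root elements. -/

set_option autoImplicit false
set_option linter.unusedSimpArgs false
set_option linter.unusedVariables false
set_option linter.unusedSectionVars false
set_option linter.style.haveILetI false

namespace Cfsg.Agent.Lib.Chev

open Cfsg Cfsg.Lie Matrix BNPair Cfsg.Agent.Lib.BN
open Good2 (NN)
open Good3 (QJ Shape Shape_mul Shape_diag_mul)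

variable {D : ChevalleyDatum} {F : Type*} [Field F]

/-- The automorphism preserves `U` and `V`. -/
def Pres (θ : ↥(D.group F) ≃* ↥(D.group F)) : Prop :=
  Carries θ (D.posUnipotent F) (D.posUnipotent F) ∧ Carries θ (D.negUnipotent F) (D.negUnipotent F)

theorem Pres.mul {α β : ↥(D.group F) ≃* ↥(D.group F)} (hα : Pres α) (hβ : Pres β) : Pres (α * β) :=
  ⟨fun y => (hβ.1 y).trans (hα.1 (β y)), fun y => (hβ.2 y).trans (hα.2 (β y))⟩

theorem Pres.inv {α : ↥(D.group F) ≃* ↥(D.group F)} (hα : Pres α) : Pres α⁻¹ := by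
  refine ⟨fun y => ?_, fun y => ?_⟩
  · rw [hα.1 (α⁻¹ y)]
    simp
  · rw [hα.2 (α⁻¹ y)]
    simp

theorem Pres.one : Pres (1 : ↥(D.group F) ≃* ↥(D.group F)) :=
  ⟨fun _ => Iff.rfl, fun _ => Iff.rfl⟩

namespace Good2

variable (G : Good2 D)
include G

/-- The root elements of the `± p_i` generate the group. -/
theorem gen_pm' {K : Subgroup (GL D.Idx F)}
    (h1 : ∀ (i : ℕ) (hi : i < D.rank) (t : F), G.xg (G.simple_lt hi) t ∈ K)
    (h2 : ∀ (i : ℕ) (hi : i < D.rank) (t : F), G.xg (G.neg_lt (G.simple_lt hi)) t ∈ K) : D.group F ≤ K := by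
  have hn : ∀ i : Fin D.rank, (G.nG i : GL D.Idx F) ∈ K := by
    rintro ⟨i, hi⟩
    rw [G.nG_eq_xgC]
    exact Subgroup.mul_mem _ (Subgroup.mul_mem _ (h1 i hi _) (h2 i hi _)) (h1 i hi _)
  have step : ∀ {i r : ℕ} (hi : i < D.rank) (hr : r < D.nroots),
      (∀ (h : G.W i r < D.nroots) (t : F), G.xg h t ∈ K) → ∀ (h : r < D.nroots) (t : F), G.xg h t ∈ K := by
    intro i r hi hr hX h t
    have h3 := G.nG_conj_x (F := F) ⟨i, hi⟩ hr
    have hs := sign_sq (F := F) (G.S_cases hi hr)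
    have e : G.xg h t = (G.nG ⟨i, hi⟩ : GL D.Idx F)⁻¹ *
        G.xg (G.W_lt hi hr) (((G.S i r : ℤ) : F) * t) * G.nG ⟨i, hi⟩ := by
      rw [← h3 t]
      group
    rw [e]
    exact Subgroup.mul_mem _ (Subgroup.mul_mem _ (Subgroup.inv_mem _ (hn _)) (hX _ _)) (hn _)
  have key : ∀ r, r < D.nroots → NN D ≤ r →
      (∀ (h : r < D.nroots) (t : F), G.xg h t ∈ K) ∧ (∀ (h : D.neg r < D.nroots) (t : F), G.xg h t ∈ K) := by
    refine G.pos_induct (fun i hi => ⟨fun h t => h1 i hi t, fun h t => h2 i hi t⟩) ?_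
    intro i r hi hr _ _ _ h
    refine ⟨step hi hr h.1, step hi (G.neg_lt hr) ?_⟩
    intro h4 t
    have h5 : G.W i (D.neg r) = D.neg (G.W i r) := G.W_neg hi hr
    have := h.2 (G.neg_lt (G.W_lt hi hr)) t
    convert this using 2
  have hK : rG D F (· < D.nroots) ≤ K := by
    apply G.rG_le (fun _ h => h)
    intro r hr t _
    by_cases hN : NN D ≤ r
    · exact (key r hr hN).1 hr t
    · have h3 := (key (D.neg r) (G.neg_lt hr) (by
        rw [G.neg_eq hr]
        have := G.NN_add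
        omega)).2
      have h4 := h3 (G.neg_lt (G.neg_lt hr)) t
      convert h4 using 2
      rw [G.neg_neg hr]
  rw [group_eq_rG]
  exact hK

/-- Two automorphisms agreeing on the fundamental root elements are equal. -/
theorem aut_ext {α β : ↥(D.group F) ≃* ↥(D.group F)}
    (h1 : ∀ (i : ℕ) (hi : i < D.rank) (t : F), α (G.xR (G.simple_lt hi) t) = β (G.xR (G.simple_lt hi) t))
    (h2 : ∀ (i : ℕ) (hi : i < D.rank) (t : F), α (G.xR (G.neg_lt (G.simple_lt hi)) t) = β (G.xR (G.neg_lt (G.simple_lt hi)) t)) :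
    α = β := by
  let E : Subgroup ↥(D.group F) := MonoidHom.eqLocus α.toMonoidHom β.toMonoidHom
  have hE := G.gen_pm' (F := F) (K := E.map (D.group F).subtype)
    (fun i hi t => ⟨G.xR (G.simple_lt hi) t, h1 i hi t, rfl⟩)
    (fun i hi t => ⟨G.xR (G.neg_lt (G.simple_lt hi)) t, h2 i hi t, rfl⟩)
  apply MulEquiv.ext
  intro y
  obtain ⟨z, hz, e⟩ := hE y.2
  have e2 : z = y := Subtype.ext e
  subst e2
  exact hz

/-- Generators carried into a subgroup. -/
theorem map_rG_le (θ : ↥(D.group F) ≃* ↥(D.group F)) {P : ℕ → Prop} (hP : ∀ r, P r → r < D.nroots) {K : Subgroup (GL D.Idx F)}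
    (h : ∀ (r : ℕ) (hr : r < D.nroots) (t : F), P r → ((θ (G.xR hr t) : ↥(D.group F)) : GL D.Idx F) ∈ K)
    {y : ↥(D.group F)} (hy : (y : GL D.Idx F) ∈ rG D F P) : ((θ y : ↥(D.group F)) : GL D.Idx F) ∈ K := by
  have key := G.rG_induction hP
    (Q := fun g => ∃ hg : g ∈ D.group F, ((θ ⟨g, hg⟩ : ↥(D.group F)) : GL D.Idx F) ∈ K)
    ⟨Subgroup.one_mem _, by
      have : (⟨1, Subgroup.one_mem _⟩ : ↥(D.group F)) = 1 := rfl
      rw [this, map_one]
      exact Subgroup.one_mem _⟩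
    (by
      rintro a b ⟨ha, ha'⟩ ⟨hb, hb'⟩
      refine ⟨Subgroup.mul_mem _ ha hb, ?_⟩
      have : (⟨a * b, Subgroup.mul_mem _ ha hb⟩ : ↥(D.group F)) = ⟨a, ha⟩ * ⟨b, hb⟩ := rfl
      rw [this, map_mul]
      exact Subgroup.mul_mem _ ha' hb')
    (fun r hr t hp => ⟨G.xg_mem_grp hr t, h r hr t hp⟩) _ hy
  obtain ⟨_, h2⟩ := key
  exact h2

/-- The automorphism maps root elements with the same root to root elements of the same root. -/
theorem pres_of_fix {θ : ↥(D.group F) ≃* ↥(D.group F)} {a a' : ℕ → F → F}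
    (h1 : ∀ (r : ℕ) (hr : r < D.nroots) (t : F), θ (G.xR hr t) = G.xR hr (a r t))
    (h2 : ∀ (r : ℕ) (hr : r < D.nroots) (t : F), θ.symm (G.xR hr t) = G.xR hr (a' r t)) : Pres θ := by
  have hc : ∀ {P : ℕ → Prop} (hP : ∀ r, P r → r < D.nroots), Carries θ (rG D F P) (rG D F P) := by
    intro P hP y
    constructor
    · intro hy
      exact G.map_rG_le θ hP (fun r hr t hp => by
        rw [h1]
        exact G.xg_mem hr hp _) hy
    · intro hy
      have := G.map_rG_le θ.symm hP (fun r hr t hp => by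
        rw [h2]
        exact G.xg_mem hr hp _) hy
      simpa using this
  exact ⟨hc (fun _ h => h.1), hc (fun _ h => h.1)⟩

/-- The set of elements normalised is in `H`. -/
theorem mem_H_of_norm2 {y : GL D.Idx F} (hy : y ∈ D.group F) (h1 : ∀ z ∈ D.posUnipotent F, y * z * y⁻¹ ∈ D.posUnipotent F)
    (n : GL D.Idx F) (hn : n ∈ G.N0 F) (hn' : (D.posUnipotent F).map (MulAut.conj n).toMonoidHom = D.negUnipotent F)
    (h2 : ∀ z ∈ D.negUnipotent F, y * z * y⁻¹ ∈ D.negUnipotent F) : y ∈ D.diagonalSubgroup F := by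
  have hB := G.mem_B_of_norm hy h1
  have hngrp : n ∈ D.group F := by
    have := (G.monomial_eq (F := F)).ge hn
    exact G.N_le_group this
  have hy' : n⁻¹ * y * n ∈ D.borelSubgroup F := by
    apply G.mem_B_of_norm (Subgroup.mul_mem _ (Subgroup.mul_mem _ (Subgroup.inv_mem _ hngrp) hy) hngrp)
    intro z hz
    have hz1 : n * z * n⁻¹ ∈ D.negUnipotent F := by
      rw [← hn']
      exact ⟨z, hz, rfl⟩
    have hz2 := h2 _ hz1
    rw [← hn'] at hz2
    obtain ⟨u, hu, e⟩ := hz2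
    have e' : n⁻¹ * y * n * z * (n⁻¹ * y * n)⁻¹ = u := by
      have e2 : n * u * n⁻¹ = y * (n * z * n⁻¹) * y⁻¹ := e
      have := congrArg (fun w => n⁻¹ * w * n) e2
      rw [show n⁻¹ * (n * u * n⁻¹) * n = u by group] at this
      rw [this]
      group
    rw [e']
    exact hu
  obtain ⟨u, hu, k, hk, e⟩ := G.B_form.mp hy'
  have e1 : y = (n * u * n⁻¹) * (n * k * n⁻¹) := by
    have : y = n * (n⁻¹ * y * n) * n⁻¹ := by group
    rw [this, e]
    group
  have hV : n * u * n⁻¹ ∈ D.negUnipotent F := by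
    rw [← hn']
    exact ⟨u, hu, rfl⟩
  have hH : n * k * n⁻¹ ∈ D.diagonalSubgroup F := G.N0_conj_H hn hk
  have h3 : y ∈ D.borelSubgroup F ⊓ (D.negUnipotent F ⊔ D.diagonalSubgroup F) := by
    refine ⟨hB, ?_⟩
    rw [e1]
    exact Subgroup.mul_mem _ ((le_sup_left : _ ≤ D.negUnipotent F ⊔ D.diagonalSubgroup F) hV)
      ((le_sup_right : _ ≤ D.negUnipotent F ⊔ D.diagonalSubgroup F) hH)
  rwa [G.B_inf_VH] at h3

end Good2

namespace Good3

variable (G : Good3 D)
include G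

/-- An inner automorphism preserving `U` and `V` is conjugation by an element of `H`. -/
theorem inn_pres {y : ↥(D.group F)} (h : Pres (MulAut.conj y)) : (y : GL D.Idx F) ∈ D.diagonalSubgroup F := by
  refine G.toGood2.mem_H_of_norm2 y.2 ?_ G.n0 G.n0_mem G.n0_conj ?_
  · intro z hz
    have hz' : z ∈ D.group F := G.toGood2.U_le_group hz
    exact (h.1 ⟨z, hz'⟩).1 hz
  · intro z hz
    have hz' : z ∈ D.group F := G.toGood2.V_le_group hz
    exact (h.2 ⟨z, hz'⟩).1 hz

end Good3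

end Cfsg.Agent.Lib.Chev
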