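import Cfsg.Agent.Lib.Chev.Aut.Diag

/-! The relations between the field automorphisms at the nodes of the diagram. -/

set_option autoImplicit false
set_option linter.unusedSimpArgs false
set_option linter.unusedVariables false
set_option linter.unusedSectionVars false
set_option linter.style.haveILetI false

namespace Cfsg.Agent.Lib.Chev

open Cfsg Cfsg.Lie Matrix BNPair Cfsg.Agent.Lib.BN
open Good2 (NN)
open Good3 (QJ Shape Shape_mul Shape_diag_mul)

variable {D : ChevalleyDatum} {F : Type*} [Field F]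

/-- The relation between the node automorphisms. -/
def NodeRel (D : ChevalleyDatum) (ρ : Equiv.Perm (Fin D.rank)) (σ : Fin D.rank → (F ≃+* F)) : Prop :=
  ∀ (i j : Fin D.rank) (t : F), t ≠ 0 →
    (σ i t) ^ (D.cartan (ρ i) (D.simple (ρ j))) = (σ j t) ^ (D.cartan i (D.simple j))

/-- The zero pattern of the Cartan matrix is preserved. -/
def ZeroPat (D : ChevalleyDatum) (ρ : Equiv.Perm (Fin D.rank)) : Prop :=
  ∀ i j : Fin D.rank, i ≠ j → (D.cartan i (D.simple j) = 0 ↔ D.cartan (ρ i) (D.simple (ρ j)) = 0)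

namespace Good2

variable (G : Good2 D)

/-- The element `n_p(t)` of the group. -/
def nnR (G : Good2 D) {i : ℕ} (hi : i < D.rank) (t : F) : ↥(D.group F) :=
  G.xR (G.simple_lt hi) t * G.xR (G.neg_lt (G.simple_lt hi)) (-t⁻¹) * G.xR (G.simple_lt hi) t

/-- The element `h_p(t)` of the group. -/
def hhR (G : Good2 D) {i : ℕ} (hi : i < D.rank) (t : F) : ↥(D.group F) :=
  G.nnR hi t * G.nnR hi (-1)

include G

theorem nnR_val {i : ℕ} (hi : i < D.rank) (t : F) :
    (((G.nnR hi t : ↥(D.group F)) : GL D.Idx F) : Matrix D.Idx D.Idx F) = D.nMat F (D.simple i) t := by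
  rw [G.nMat_eq]
  rfl

theorem nnR_one {i : ℕ} (hi : i < D.rank) : G.nnR hi (1 : F) = G.nGG F ⟨i, hi⟩ := by
  apply Subtype.ext
  apply Units.ext
  rw [G.nnR_val]
  rfl

theorem hhR_val {i : ℕ} (hi : i < D.rank) (t : F) :
    (((G.hhR hi t : ↥(D.group F)) : GL D.Idx F) : Matrix D.Idx D.Idx F) = D.hMat F (D.simple i) t := by
  rw [G.hMat_eq]
  show (((G.nnR hi t : ↥(D.group F)) : GL D.Idx F) : Matrix D.Idx D.Idx F) * (((G.nnR hi (-1) : ↥(D.group F)) : GL D.Idx F) : Matrix D.Idx D.Idx F) = _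
  rw [G.nnR_val, G.nnR_val]

theorem hhR_conj {i s : ℕ} (hi : i < D.rank) (hs : s < D.nroots) {t : F} (ht : t ≠ 0) (u : F) :
    G.hhR hi t * G.xR hs u * (G.hhR hi t)⁻¹ = G.xR hs (t ^ (D.cartan i s) * u) := by
  rw [mul_inv_eq_iff_eq_mul]
  apply Subtype.ext
  apply Units.ext
  show (((G.hhR hi t : ↥(D.group F)) : GL D.Idx F) : Matrix D.Idx D.Idx F) * D.x F s u = D.x F s _ * (((G.hhR hi t : ↥(D.group F)) : GL D.Idx F) : Matrix D.Idx D.Idx F)
  rw [G.hhR_val, G.h_eq (G.simple_lt hi) ht]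
  unfold Dg
  rw [G.toGood0.dgM_mul_x (G.chiP_isChi _ ht) hs]
  unfold chiP
  rw [G.pairing_simple hi]

/-- A non-trivial element of a positive root subgroup determines the root. -/
theorem x_root_eq' {r s : ℕ} (hr : r < D.nroots) (hN : NN D ≤ r) (hs : s < D.nroots) {c d : F} (hc : c ≠ 0) (hd : d ≠ 0)
    (e : G.xg hr c = G.xg hs d) : s = r := by
  by_contra hne
  by_cases hsN : s < NN D
  · apply hd
    apply G.x_neg_mem_B hs hsN
    rw [← e]
    exact G.U_le_B (G.xg_mem hr ((G.pos_iff hr).mpr hN) c)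
  · rcases lt_or_gt_of_ne hne with h | h
    · apply hd
      apply G.xg_mem_Ut_eq hs (by omega)
      rw [← e]
      exact G.xg_mem hr ⟨by omega, hr⟩ c
    · apply hc
      apply G.xg_mem_Ut_eq hr hN
      rw [e]
      exact G.xg_mem hs ⟨by omega, hs⟩ d

/-- `n_j` commutes with `x_{p_i}(1)` iff the Cartan integer vanishes. -/
theorem comm_iff_cartan (hT1 : ∀ i j, i < D.rank → j < D.rank → i ≠ j → D.cartan i (D.simple j) = 0 →
      G.W j (D.simple i) = D.simple i ∧ G.S j (D.simple i) = 1)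
    (F : Type*) [Field F] {i j : ℕ} (hi : i < D.rank) (hj : j < D.rank) (hij : i ≠ j) :
    D.cartan i (D.simple j) = 0 ↔ G.nGG F ⟨j, hj⟩ * G.xR (G.simple_lt hi) (1 : F) * (G.nGG F ⟨j, hj⟩)⁻¹ = G.xR (G.simple_lt hi) 1 := by
  have hp := G.simple_lt hi
  constructor
  · intro h
    obtain ⟨h1, h2⟩ := hT1 i j hi hj hij h
    apply Subtype.ext
    show (G.nG ⟨j, hj⟩ : GL D.Idx F) * G.xg hp 1 * (G.nG ⟨j, hj⟩)⁻¹ = G.xg hp 1
    rw [G.nG_conj_x]
    apply Units.ext
    simp only [Good0.xg_val]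
    rw [h1, h2]
    simp
  · intro h
    have h1 : (G.nG ⟨j, hj⟩ : GL D.Idx F) * G.xg hp 1 * (G.nG ⟨j, hj⟩)⁻¹ = G.xg hp 1 := congrArg Subtype.val h
    rw [G.nG_conj_x] at h1
    have h3 := sign_sq (F := F) (G.S_cases hj hp)
    have h4 : ((G.S j (D.simple i) : ℤ) : F) * 1 ≠ 0 := by
      rw [mul_one]
      intro h5
      rw [h5] at h3
      simp at h3
    have h5 := G.x_root_eq' hp (G.simple_pos hi) (G.W_lt hj hp) (c := (1 : F)) one_ne_zero h4 h1.symm
    have h6 := G.p4' hj hp hj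
    rw [h5] at h6
    simp only [if_true] at h6
    have h7 : ((List.range D.rank).map fun l => cor D (D.simple i) l * D.cartan l (D.simple j)).sum = D.cartan i (D.simple j) := by
      rw [← pairing_eq, G.pairing_simple hi]
    rw [h7] at h6
    omega

end Good2

namespace Good5

variable (G : Good5 D)
include G

/-- Consequences of the form of an automorphism on the fundamental root elements. -/
theorem node_rels {θ : ↥(D.group F) ≃* ↥(D.group F)} {ρ : Equiv.Perm (Fin D.rank)} {σ : Fin D.rank → (F ≃+* F)}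
    (hT1 : ∀ i j, i < D.rank → j < D.rank → i ≠ j → D.cartan i (D.simple j) = 0 →
      G.W j (D.simple i) = D.simple i ∧ G.S j (D.simple i) = 1)
    (hθ : ∀ (i : Fin D.rank) (t : F), θ (G.toGood2.xR (G.simple_lt i.isLt) t) = G.toGood2.xR (G.simple_lt (ρ i).isLt) (σ i t) ∧
      θ (G.toGood2.xR (G.neg_lt (G.simple_lt i.isLt)) t) = G.toGood2.xR (G.neg_lt (G.simple_lt (ρ i).isLt)) (σ i t)) :
    NodeRel D ρ σ ∧ ZeroPat D ρ := by
  have hn : ∀ (i : Fin D.rank) (t : F), θ (G.toGood2.nnR i.isLt t) = G.toGood2.nnR (ρ i).isLt (σ i t) := by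
    intro i t
    unfold Good2.nnR
    rw [map_mul, map_mul, (hθ i t).1, (hθ i _).2, map_neg, map_inv₀]
  have hh : ∀ (i : Fin D.rank) (t : F), θ (G.toGood2.hhR i.isLt t) = G.toGood2.hhR (ρ i).isLt (σ i t) := by
    intro i t
    unfold Good2.hhR
    rw [map_mul, hn, hn, map_neg, map_one]
  constructor
  · intro i j t ht
    have h1 := G.toGood2.hhR_conj i.isLt (G.simple_lt j.isLt) ht 1
    have h2 := congrArg θ h1
    rw [map_mul, map_mul, map_inv, hh, (hθ j 1).1, (hθ j _).1, map_one,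
      G.toGood2.hhR_conj (ρ i).isLt (G.simple_lt (ρ j).isLt) ((map_ne_zero (σ i)).mpr ht) 1] at h2
    have h3 := G.toGood2.xR_inj _ h2
    rw [mul_one, mul_one, map_zpow₀] at h3
    exact h3
  · intro i j hij
    have hij' : i.val ≠ j.val := fun h => hij (Fin.ext h)
    have hρ' : (ρ i).val ≠ (ρ j).val := fun h => hij (ρ.injective (Fin.ext h))
    rw [G.toGood2.comm_iff_cartan hT1 F i.isLt j.isLt hij', G.toGood2.comm_iff_cartan hT1 F (ρ i).isLt (ρ j).isLt hρ']
    have hnG : ∀ k : Fin D.rank, θ (G.toGood2.nGG F k) = G.toGood2.nGG F (ρ k) := by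
      intro k
      have h1 := hn k 1
      rw [G.toGood2.nnR_one, map_one, G.toGood2.nnR_one] at h1
      exact h1
    have hx1 : θ (G.toGood2.xR (G.simple_lt i.isLt) (1 : F)) = G.toGood2.xR (G.simple_lt (ρ i).isLt) 1 := by
      rw [(hθ i 1).1, map_one]
    constructor
    · intro h
      have h2 := congrArg θ h
      rw [map_mul, map_mul, map_inv, hnG, hx1] at h2
      exact h2
    · intro h
      apply θ.injective
      rw [map_mul, map_mul, map_inv, hnG, hx1]
      exact h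

end Good5

end Cfsg.Agent.Lib.Chev
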