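import Cfsg.Agent.Lib.Chev.Aut.Finish
import Cfsg.Agent.Lib.Chev.Tab.D4e

/-! The diagram of type D4. -/

set_option autoImplicit false
set_option linter.style.haveILetI false

namespace Cfsg.Agent.Lib.Chev.TabD4

open Cfsg Cfsg.Lie

theorem aut_hrc : ∀ i, i < chevD4.rank → good5.rc (chevD4.simple i) i = 1 := by decide +kernel

theorem aut_hT1' : ∀ i, i < chevD4.rank → ∀ j, j < chevD4.rank → i ≠ j → chevD4.cartan i (chevD4.simple j) = 0 →
      good5.W j (chevD4.simple i) = chevD4.simple i ∧ good5.S j (chevD4.simple i) = 1 := by decide +kernel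

theorem aut_hA : ∀ i j : Fin chevD4.rank, i ≠ j → chevD4.cartan i (chevD4.simple j) = 0 ∨ chevD4.cartan i (chevD4.simple j) = -1 := by
  decide +kernel

theorem aut_hL : ∀ i : Fin chevD4.rank, chevD4.isLong (chevD4.simple i) = false := by decide +kernel

/-- A walk through the diagram. -/
def aut_walk : List (Fin chevD4.rank) := [⟨0, by decide⟩, ⟨1, by decide⟩, ⟨2, by decide⟩, ⟨1, by decide⟩, ⟨3, by decide⟩]

theorem aut_hw : List.IsChain (fun a b : Fin chevD4.rank => chevD4.cartan a (chevD4.simple b) ≠ 0) aut_walk := by decide +kernel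

theorem aut_hc : ∀ i, i ∈ aut_walk := by decide +kernel

variable {F : Type*} [Field F]

theorem aut_hfin (ρ : Equiv.Perm (Fin chevD4.rank)) (σ : Fin chevD4.rank → (F ≃+* F))
    (hR : NodeRel chevD4 ρ σ) (hZ : ZeroPat chevD4 ρ) :
    chevD4.IsDiagramSymmetry ρ ∧ ∃ σ₀ : F ≃+* F, ∀ (i : Fin chevD4.rank) (t : F),
      σ i t = (σ₀ t) ^ chevD4.graphExp (ringChar F) i (ρ i) :=
  finish_sl hR hZ aut_hA aut_hL aut_hw aut_hc ⟨0, by decide⟩

theorem aut_result [Finite F] (θ : ↥(chevD4.group F) ≃* ↥(chevD4.group F)) :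
    ∃ (x : ↥(chevD4.group F)) (d g f : ↥(chevD4.group F) ≃* ↥(chevD4.group F)),
      chevD4.IsDiagonalAut d ∧ chevD4.IsGraphAut g ∧ chevD4.IsFieldAut f ∧
        ∀ y : ↥(chevD4.group F), θ y = x * d (g (f y)) * x⁻¹ :=
  good5.aut_main aut_hrc (fun i j hi hj h => aut_hT1' i hi j hj h) aut_hfin θ

end Cfsg.Agent.Lib.Chev.TabD4
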